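import Mathlib

set_option autoImplicit false

namespace Cfsg.Agent.Lib.Helper19

open Nat

/-- If at most one prime lies in `(n, 2n]`, the central binomial coefficient is small. -/
theorem centralBinom_le_of_one_bertrand_prime (n : ℕ) (n_large : 2 < n) (p₀ : ℕ)
    (one_prime : ∀ p : ℕ, p.Prime → n < p → p ≤ 2 * n → p = p₀) :
    centralBinom n ≤ (2 * n) ^ sqrt (2 * n) * 4 ^ (2 * n / 3) := by
  have n_pos : 0 < n := (Nat.zero_le _).trans_lt n_large
  have n2_pos : 1 ≤ 2 * n := mul_pos (zero_lt_two' ℕ) n_pos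
  let f : ℕ → ℕ := fun x => x ^ n.centralBinom.factorization x
  have hfle : ∀ x, f x ≤ 2 * n := fun x => pow_factorization_choose_le (mul_pos two_pos n_pos)
  have hsplit : centralBinom n = (∏ x ∈ Finset.range (2 * n / 3 + 1), f x) *
      ∏ x ∈ Finset.Ico (2 * n / 3 + 1) (2 * n + 1), f x := by
    rw [Finset.prod_range_mul_prod_Ico f (by omega)]
    exact n.prod_pow_factorization_centralBinom.symm
  have hupper : ∏ x ∈ Finset.Ico (2 * n / 3 + 1) (2 * n + 1), f x ≤ 2 * n := by
    have h1 : ∀ x ∈ Finset.Ico (2 * n / 3 + 1) (2 * n + 1),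
        f x ≤ if x = p₀ then 2 * n else 1 := by
      intro x hx
      rw [Finset.mem_Ico] at hx
      split_ifs with h
      · exact hfle x
      · have h0 : n.centralBinom.factorization x = 0 := by
          by_cases hxp : x.Prime
          · by_cases hxn : x ≤ n
            · exact factorization_centralBinom_of_two_mul_self_lt_three_mul n_large hxn
                (by omega)
            · exact absurd (one_prime x hxp (by omega) (by omega)) h
          · exact factorization_eq_zero_of_not_prime _ hxp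
        show x ^ _ ≤ 1
        rw [h0, pow_zero]
    refine (Finset.prod_le_prod' h1).trans ?_
    rw [Finset.prod_ite_eq']
    split_ifs <;> omega
  have hlower : ∏ x ∈ Finset.range (2 * n / 3 + 1), f x ≤
      (2 * n) ^ (sqrt (2 * n) - 1) * 4 ^ (2 * n / 3) := by
    let S := {p ∈ Finset.range (2 * n / 3 + 1) | Nat.Prime p}
    have hS : ∏ x ∈ S, f x = ∏ x ∈ Finset.range (2 * n / 3 + 1), f x := by
      refine Finset.prod_filter_of_ne fun p _ h => ?_
      contrapose h; dsimp only [f]
      rw [factorization_eq_zero_of_not_prime n.centralBinom h, _root_.pow_zero]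
    rw [← hS, ← Finset.prod_filter_mul_prod_filter_not S (· ≤ sqrt (2 * n))]
    apply mul_le_mul'
    · refine (Finset.prod_le_prod' fun p _ => (hfle p)).trans ?_
      have hc : (Finset.Icc 2 (sqrt (2 * n))).card = sqrt (2 * n) - 1 := by
        rw [card_Icc]; omega
      rw [Finset.prod_const]
      refine pow_right_mono₀ n2_pos ((Finset.card_le_card fun x hx => ?_).trans hc.le)
      obtain ⟨h1, h2⟩ := Finset.mem_filter.1 hx
      exact Finset.mem_Icc.mpr ⟨(Finset.mem_filter.1 h1).2.two_le, h2⟩
    · refine le_trans ?_ (primorial_le_four_pow (2 * n / 3))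
      refine (Finset.prod_le_prod' fun p hp => (?_ : f p ≤ p)).trans ?_
      · obtain ⟨h1, h2⟩ := Finset.mem_filter.1 hp
        refine (pow_right_mono₀ (Finset.mem_filter.1 h1).2.one_lt.le ?_).trans (pow_one p).le
        exact Nat.factorization_choose_le_one (sqrt_lt'.mp <| not_le.1 h2)
      refine Finset.prod_le_prod_of_subset_of_one_le' (Finset.filter_subset _ _) ?_
      exact fun p hp _ => (Finset.mem_filter.1 hp).2.one_lt.le
  rw [hsplit]
  have hs : 1 ≤ sqrt (2 * n) := by
    rw [Nat.le_sqrt]; omega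
  obtain ⟨k, hk⟩ : ∃ k, sqrt (2 * n) = k + 1 := ⟨sqrt (2 * n) - 1, by omega⟩
  calc (∏ x ∈ Finset.range (2 * n / 3 + 1), f x) *
        ∏ x ∈ Finset.Ico (2 * n / 3 + 1) (2 * n + 1), f x
      ≤ ((2 * n) ^ (sqrt (2 * n) - 1) * 4 ^ (2 * n / 3)) * (2 * n) :=
        Nat.mul_le_mul hlower hupper
    _ = (2 * n) ^ sqrt (2 * n) * 4 ^ (2 * n / 3) := by
      rw [hk, Nat.add_sub_cancel, pow_succ]; ring

/-- Two primes in `(n, 2n]` for large `n`. -/
theorem exists_two_primes_eventually (n : ℕ) (n_large : 512 ≤ n) :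
    ∃ p q : ℕ, p.Prime ∧ q.Prime ∧ n < p ∧ p < q ∧ q ≤ 2 * n := by
  obtain ⟨p₀, hp₀, h1, h2⟩ := Nat.exists_prime_lt_and_le_two_mul n (by omega)
  by_contra hcon
  have one_prime : ∀ p : ℕ, p.Prime → n < p → p ≤ 2 * n → p = p₀ := by
    intro p hp hnp hp2
    by_contra hne
    apply hcon
    rcases lt_or_gt_of_ne hne with h | h
    · exact ⟨p, p₀, hp, hp₀, hnp, h, h2⟩
    · exact ⟨p₀, p, hp₀, hp, h1, h, hp2⟩
  have hlt : 4 ^ n < n * n.centralBinom := Nat.four_pow_lt_mul_centralBinom n (by omega)
  have hle := centralBinom_le_of_one_bertrand_prime n (by omega) p₀ one_prime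
  have hmain := bertrand_main_inequality n_large
  have hfin : n * n.centralBinom ≤ 4 ^ n := by
    calc n * n.centralBinom ≤ n * ((2 * n) ^ sqrt (2 * n) * 4 ^ (2 * n / 3)) :=
          Nat.mul_le_mul_left _ hle
      _ = n * (2 * n) ^ sqrt (2 * n) * 4 ^ (2 * n / 3) := by ring
      _ ≤ 4 ^ n := hmain
  omega

/-- Two primes in `(n, 2n]` for every `n ≥ 6`. -/
theorem exists_two_primes (n : ℕ) (hn : 6 ≤ n) :
    ∃ p q : ℕ, p.Prime ∧ q.Prime ∧ n < p ∧ p < q ∧ q ≤ 2 * n := by
  rcases le_or_gt 512 n with h | h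
  · exact exists_two_primes_eventually n h
  rcases lt_or_ge n 7 with h7 | h7
  · exact ⟨7, 11, by norm_num, by norm_num, by omega, by norm_num, by omega⟩
  rcases lt_or_ge n 11 with h11 | h11
  · exact ⟨11, 13, by norm_num, by norm_num, by omega, by norm_num, by omega⟩
  rcases lt_or_ge n 13 with h13 | h13
  · exact ⟨13, 19, by norm_num, by norm_num, by omega, by norm_num, by omega⟩
  rcases lt_or_ge n 19 with h19 | h19
  · exact ⟨19, 23, by norm_num, by norm_num, by omega, by norm_num, by omega⟩
  rcases lt_or_ge n 23 with h23 | h23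
  · exact ⟨23, 37, by norm_num, by norm_num, by omega, by norm_num, by omega⟩
  rcases lt_or_ge n 37 with h37 | h37
  · exact ⟨37, 43, by norm_num, by norm_num, by omega, by norm_num, by omega⟩
  rcases lt_or_ge n 43 with h43 | h43
  · exact ⟨43, 73, by norm_num, by norm_num, by omega, by norm_num, by omega⟩
  rcases lt_or_ge n 73 with h73 | h73
  · exact ⟨73, 83, by norm_num, by norm_num, by omega, by norm_num, by omega⟩
  rcases lt_or_ge n 83 with h83 | h83
  · exact ⟨83, 139, by norm_num, by norm_num, by omega, by norm_num, by omega⟩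
  rcases lt_or_ge n 139 with h139 | h139
  · exact ⟨139, 163, by norm_num, by norm_num, by omega, by norm_num, by omega⟩
  rcases lt_or_ge n 163 with h163 | h163
  · exact ⟨163, 277, by norm_num, by norm_num, by omega, by norm_num, by omega⟩
  rcases lt_or_ge n 277 with h277 | h277
  · exact ⟨277, 317, by norm_num, by norm_num, by omega, by norm_num, by omega⟩
  rcases lt_or_ge n 317 with h317 | h317
  · exact ⟨317, 547, by norm_num, by norm_num, by omega, by norm_num, by omega⟩
  exact ⟨547, 631, by norm_num, by norm_num, by omega, by norm_num, by omega⟩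

end Cfsg.Agent.Lib.Helper19
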