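import Mathlib
import Cfsg.Agent.S0721
import Cfsg.Agent.Lib.Lead.Hall
import Cfsg.Agent.Lib.Helper19.TwoPrimes

set_option autoImplicit false

universe u

namespace Cfsg.Agent.Lib.Helper19

section frattini

/-- A Frattini-argument lemma: if the Sylow `a`-subgroups of a normal subgroup `S` have order not
congruent to `1` modulo a prime `b` dividing the order of the group but not of `S`, there are
commuting elements of orders `b` and `a`. -/
theorem exists_commuting_of_frattini {K : Type*} [Group K] [Finite K] (S : Subgroup K)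
    [S.Normal] (a b : ℕ) [Fact a.Prime] [Fact b.Prime] (haS : a ∣ Nat.card S)
    (hS : ∀ j : ℕ, 1 ≤ j → a ^ j ∣ Nat.card S → ¬ (a ^ j ≡ 1 [MOD b]))
    (hbK : b ∣ Nat.card K) (hbS : ¬ b ∣ Nat.card S) :
    ∃ x y : K, orderOf x = b ∧ orderOf y = a ∧ Commute x y := by
  classical
  have ha : a.Prime := Fact.out
  have hb : b.Prime := Fact.out
  obtain ⟨A⟩ : Nonempty (Sylow a S) := inferInstance
  set A' : Subgroup K := (A : Subgroup S).map S.subtype with hA'
  have hfr : Subgroup.normalizer (A' : Set K) ⊔ S = ⊤ := Sylow.normalizer_sup_eq_top A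
  have hcardA' : Nat.card A' = Nat.card A :=
    Nat.card_congr
      ((A : Subgroup S).equivMapOfInjective S.subtype S.subtype_injective).symm.toEquiv
  have hcardA : Nat.card A = a ^ (Nat.card S).factorization a := A.card_eq_multiplicity
  have hjpos : 1 ≤ (Nat.card S).factorization a :=
    ha.factorization_pos_of_dvd Nat.card_pos.ne' haS
  have hAmod : ¬ (Nat.card A' ≡ 1 [MOD b]) := by
    rw [hcardA', hcardA]
    exact hS _ hjpos (Nat.ordProj_dvd _ _)
  -- `b` divides the order of the normalizer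
  have hbN : b ∣ Nat.card (Subgroup.normalizer (A' : Set K)) := by
    have h1 : S.relIndex (Subgroup.normalizer (A' : Set K)) = S.index := by
      rw [← Subgroup.relIndex_sup_right, hfr, Subgroup.relIndex_top_right]
    have h2 : Nat.card S * S.index = Nat.card K := Subgroup.card_mul_index S
    rw [← h2] at hbK
    have h3 : b ∣ S.index := (hb.dvd_mul.mp hbK).resolve_left hbS
    rw [← h1] at h3
    exact h3.trans (Subgroup.relIndex_dvd_card _ _)
  obtain ⟨x, hx⟩ := exists_prime_orderOf_dvd_card' b hbN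
  have hxo : orderOf (x : K) = b := by rw [Subgroup.orderOf_coe]; exact hx
  have hxn : ∀ k : ℕ, ∀ h : K, h ∈ A' → (x : K) ^ k * h * ((x : K) ^ k)⁻¹ ∈ A' := by
    intro k h hh
    have hm : (x : K) ^ k ∈ Subgroup.normalizer (A' : Set K) :=
      Subgroup.pow_mem _ x.2 k
    exact (Subgroup.mem_normalizer_iff.mp hm h).mp hh
  let f : Function.End A' := fun y =>
    ⟨(x : K) * y * (x : K)⁻¹, by
      have := hxn 1 y y.2
      rwa [pow_one] at this⟩
  have hfpow : ∀ (k : ℕ) (y : A'), (((f ^ k) y : A') : K) = (x : K) ^ k * y * ((x : K) ^ k)⁻¹ := by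
    intro k
    induction k with
    | zero =>
      intro y
      rw [pow_zero, pow_zero, inv_one, one_mul, mul_one]
      rfl
    | succ k ih =>
      intro y
      rw [pow_succ]
      show (((f ^ k) (f y) : A') : K) = _
      rw [ih]
      show (x : K) ^ k * ((x : K) * y * (x : K)⁻¹) * ((x : K) ^ k)⁻¹ = _
      rw [pow_succ]
      group
  have hxb : (x : K) ^ b = 1 := by
    rw [← hxo]
    exact pow_orderOf_eq_one _
  have hfb : f ^ b ^ 1 = 1 := by
    rw [pow_one]
    funext y
    apply Subtype.ext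
    rw [hfpow, hxb, inv_one, one_mul, mul_one]
    rfl
  haveI : Fintype A' := Fintype.ofFinite _
  have hmod := Equiv.Perm.card_fixedPoints_modEq (p := b) (n := 1) hfb
  rw [← Nat.card_eq_fintype_card, ← Nat.card_eq_fintype_card] at hmod
  -- a nontrivial fixed point
  have hex : ∃ y : A', (y : K) ≠ 1 ∧ (x : K) * y * (x : K)⁻¹ = y := by
    by_contra hcon
    push Not at hcon
    apply hAmod
    have hone : Nat.card (Function.fixedPoints f) = 1 := by
      rw [Nat.card_eq_one_iff_unique]
      refine ⟨⟨?_⟩, ⟨⟨1, ?_⟩⟩⟩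
      · rintro ⟨y₁, h₁⟩ ⟨y₂, h₂⟩
        apply Subtype.ext
        have e₁ : (y₁ : K) = 1 := by
          by_contra hne
          exact hcon y₁ hne (congrArg Subtype.val h₁)
        have e₂ : (y₂ : K) = 1 := by
          by_contra hne
          exact hcon y₂ hne (congrArg Subtype.val h₂)
        exact Subtype.ext (e₁.trans e₂.symm)
      · show f 1 = 1
        apply Subtype.ext
        show (x : K) * ((1 : A') : K) * (x : K)⁻¹ = ((1 : A') : K)
        simp
    rw [hone] at hmod
    exact hmod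
  obtain ⟨y, hy1, hxy⟩ := hex
  have hcomm : Commute (x : K) (y : K) := by
    show (x : K) * y = y * x
    calc (x : K) * y = ((x : K) * y * (x : K)⁻¹) * x := by group
      _ = y * x := by rw [hxy]
  -- the order of `y` is a power of `a`
  have hyo : orderOf (y : K) ∣ a ^ (Nat.card S).factorization a := by
    rw [← hcardA, ← hcardA', Subgroup.orderOf_coe]
    exact orderOf_dvd_natCard y
  have hady : a ∣ orderOf (y : K) := by
    obtain ⟨i, -, hi⟩ := (Nat.dvd_prime_pow ha).mp hyo
    rcases i with _ | i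
    · rw [pow_zero, orderOf_eq_one_iff] at hi
      exact (hy1 hi).elim
    · rw [hi, pow_succ]
      exact dvd_mul_left _ _
  refine ⟨x, (y : K) ^ (orderOf (y : K) / a), hxo,
    orderOf_pow_orderOf_div (orderOf_pos _).ne' hady, hcomm.pow_right _⟩

/-- Element orders lift from quotients. -/
theorem exists_orderOf_of_quotient {G : Type*} [Group G] [Finite G] (N : Subgroup G) [N.Normal]
    (m : ℕ) (x : G ⧸ N) (hx : orderOf x = m) : ∃ g : G, orderOf g = m := by
  obtain ⟨g, rfl⟩ := QuotientGroup.mk_surjective x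
  have hdvd : m ∣ orderOf g := by
    rw [← hx]
    apply orderOf_dvd_of_pow_eq_one
    rw [← QuotientGroup.mk_pow, pow_orderOf_eq_one]
    rfl
  exact ⟨g ^ (orderOf g / m), orderOf_pow_orderOf_div (orderOf_pos g).ne' hdvd⟩

/-- A simple group whose order is divisible by two distinct primes is not commutative. -/
theorem not_comm_of_two_primes {T : Type*} [Group T] [Finite T] [IsSimpleGroup T] (p r : ℕ)
    (hp : p.Prime) (hpr : p ≠ r) (hr : r.Prime) (hpT : p ∣ Nat.card T) (hrT : r ∣ Nat.card T) :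
    ¬ IsMulCommutative T := by
  intro hc
  haveI : Fact p.Prime := ⟨hp⟩
  obtain ⟨x, hx⟩ := exists_prime_orderOf_dvd_card' p hpT
  have hn : (Subgroup.zpowers x).Normal := ⟨fun y hy g => by
    rw [hc.is_comm.comm g y, mul_inv_cancel_right]; exact hy⟩
  rcases IsSimpleGroup.eq_bot_or_eq_top_of_normal _ hn with h | h
  · have hx1 : x = 1 := by
      have : x ∈ Subgroup.zpowers x := Subgroup.mem_zpowers x
      rw [h, Subgroup.mem_bot] at this
      exact this
    rw [hx1, orderOf_one] at hx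
    exact hp.one_lt.ne hx
  · have hcard : Nat.card T = p := by
      rw [← Subgroup.card_top (G := T), ← h, Nat.card_zpowers, hx]
    rw [hcard] at hrT
    exact hpr ((Nat.prime_dvd_prime_iff_eq hr hp).mp hrT).symm

end frattini

section core

/-- A simple section carrying a prime `p` that divides the group order exactly once; every prime
`r` forbidden from combining with `p` divides the order of the same section. -/
theorem exists_simple_section {G : Type u} [Group G] [Finite G] (p : ℕ) (hp : p.Prime)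
    (hpG : p ∣ Nat.card G) (hp2 : ¬ p ^ 2 ∣ Nat.card G) :
    ∃ (N H : Subgroup G) (_ : N.Normal), H.Normal ∧ N < H ∧
      IsSimpleGroup (↥H ⧸ N.subgroupOf H) ∧ p ∣ Nat.card (↥H ⧸ N.subgroupOf H) ∧
      ∀ r : ℕ, r.Prime → r ∣ Nat.card G → (∀ g : G, orderOf g ≠ p * r) →
        (∀ j : ℕ, 1 ≤ j → r ^ j ∣ Nat.card G → ¬ (r ^ j ≡ 1 [MOD p])) → ¬ (p ≡ 1 [MOD r]) →
        r ∣ Nat.card (↥H ⧸ N.subgroupOf H) := by
  classical
  haveI : Fact p.Prime := ⟨hp⟩
  haveI : Nonempty {N : Subgroup G // N.Normal ∧ ¬ p ∣ Nat.card N} :=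
    ⟨⟨⊥, inferInstance, by
      rw [Subgroup.card_bot]
      exact fun h => hp.one_lt.ne' (Nat.dvd_one.mp h)⟩⟩
  obtain ⟨⟨N, hNn, hNp⟩, hNmax⟩ := Finite.exists_max
    (fun N : {N : Subgroup G // N.Normal ∧ ¬ p ∣ Nat.card N} => Nat.card N.1)
  haveI := hNn
  have hcardG : Nat.card G = Nat.card (G ⧸ N) * Nat.card N :=
    Subgroup.card_eq_card_quotient_mul_card_subgroup N
  have hpQ : p ∣ Nat.card (G ⧸ N) := by
    rw [hcardG] at hpG
    exact (hp.dvd_mul.mp hpG).resolve_right hNp
  have htop : (⊤ : Subgroup (G ⧸ N)) ≠ ⊥ := by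
    intro h
    have h1 : Nat.card (G ⧸ N) = 1 := by
      rw [← Subgroup.card_top (G := G ⧸ N), h, Subgroup.card_bot]
    rw [h1] at hpQ
    exact hp.one_lt.ne' (Nat.dvd_one.mp hpQ)
  have hex : ∃ n, ∃ V : Subgroup (G ⧸ N), V.Normal ∧ V ≠ ⊥ ∧ Nat.card V = n :=
    ⟨_, ⊤, inferInstance, htop, rfl⟩
  obtain ⟨M, hMn, hMne, hMcard⟩ := Nat.find_spec hex
  have hMmin : ∀ K : Subgroup (G ⧸ N), K.Normal → K ≤ M → K = ⊥ ∨ K = M := by
    intro K hKn hKM
    by_cases hK : K = ⊥
    · exact Or.inl hK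
    · right
      apply Subgroup.eq_of_le_of_card_ge hKM
      rw [hMcard]
      exact Nat.find_min' hex ⟨K, hKn, hK, rfl⟩
  haveI := hMn
  obtain ⟨T, instT, k, hTs, hk, ⟨e⟩⟩ := Cfsg.Agent.S0721.result M hMne hMmin
  set H : Subgroup G := M.comap (QuotientGroup.mk' N) with hH
  have hHn : H.Normal := hMn.comap _
  have hcardH : Nat.card H = Nat.card N * Nat.card M := Cfsg.Agent.Lib.Lead.Hall.card_comap_mk N M
  have hM1 : 1 < Nat.card M := (Subgroup.one_lt_card_iff_ne_bot M).mpr hMne
  have hNpos : 0 < Nat.card N := Nat.card_pos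
  have hpM : p ∣ Nat.card M := by
    by_contra hnd
    have h1 := hNmax ⟨H, hHn, by
      rw [hcardH]
      exact fun h => (hp.dvd_mul.mp h).elim hNp hnd⟩
    have h2 : Nat.card H ≤ Nat.card N := h1
    rw [hcardH] at h2
    nlinarith
  have hMG : Nat.card M ∣ Nat.card G := by
    rw [hcardG]
    exact (Subgroup.card_subgroup_dvd_card M).trans (dvd_mul_right _ _)
  have hcardM : Nat.card M = Nat.card T ^ k := by
    rw [Nat.card_congr e.toEquiv, Nat.card_fun, Nat.card_fin]
  have hk1 : k = 1 := by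
    have hpT : p ∣ Nat.card T := by
      rw [hcardM] at hpM
      exact hp.dvd_of_dvd_pow hpM
    by_contra hne
    have hk2 : 2 ≤ k := by omega
    apply hp2
    have h1 : p ^ 2 ∣ Nat.card T ^ k :=
      (pow_dvd_pow p hk2).trans (pow_dvd_pow_of_dvd hpT k)
    rw [← hcardM] at h1
    exact h1.trans hMG
  subst hk1
  have e' : M ≃* T := e.trans (MulEquiv.funUnique (Fin 1) T)
  -- the section
  let f : H →* M := (QuotientGroup.mk' N).subgroupComap M
  have hfsurj : Function.Surjective f :=
    MonoidHom.subgroupComap_surjective_of_surjective _ _ (QuotientGroup.mk'_surjective N)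
  have hker : f.ker = N.subgroupOf H := by
    ext ⟨h, hh⟩
    rw [MonoidHom.mem_ker, Subgroup.mem_subgroupOf]
    constructor
    · intro h1
      have h2 : (QuotientGroup.mk' N) h = 1 := congrArg Subtype.val h1
      exact (QuotientGroup.eq_one_iff h).mp h2
    · intro h1
      apply Subtype.ext
      exact (QuotientGroup.eq_one_iff h).mpr h1
  let φ : (↥H ⧸ N.subgroupOf H) ≃* M :=
    (QuotientGroup.quotientMulEquivOfEq hker.symm).trans
      (QuotientGroup.quotientKerEquivOfSurjective f hfsurj)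
  have hcardsec : Nat.card (↥H ⧸ N.subgroupOf H) = Nat.card M := Nat.card_congr φ.toEquiv
  have hNH : N ≤ H := by
    intro n hn
    show (QuotientGroup.mk' N) n ∈ M
    have : (QuotientGroup.mk' N) n = 1 := (QuotientGroup.eq_one_iff n).mpr hn
    rw [this]
    exact M.one_mem
  have hNltH : N < H := by
    refine lt_of_le_of_ne hNH ?_
    intro h
    have h2 : Nat.card N = Nat.card H := by rw [h]
    rw [hcardH] at h2
    nlinarith
  haveI : IsSimpleGroup (↥H ⧸ N.subgroupOf H) := (φ.trans e').isSimpleGroup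
  refine ⟨N, H, hNn, hHn, hNltH, inferInstance, by rw [hcardsec]; exact hpM, ?_⟩
  intro r hr hrG hno hpow hpr
  haveI : Fact r.Prime := ⟨hr⟩
  rw [hcardsec]
  by_contra hrM
  have hrp : r ≠ p := fun h => hrM (h ▸ hpM)
  have hcop : Nat.Coprime r p := (Nat.coprime_primes hr hp).mpr hrp
  -- `r` does not divide the order of `N`
  have hrN : ¬ r ∣ Nat.card N := by
    intro hrN
    obtain ⟨x, y, hx, hy, hxy⟩ := exists_commuting_of_frattini N r p hrN
      (fun j hj hjd => hpow j hj (hjd.trans (Subgroup.card_subgroup_dvd_card N))) hpG hNp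
    apply hno (x * y)
    rw [hxy.orderOf_mul_eq_mul_orderOf_of_coprime (by rw [hx, hy]; exact hcop.symm), hx, hy]
  have hrQ : r ∣ Nat.card (G ⧸ N) := by
    rw [hcardG] at hrG
    exact (hr.dvd_mul.mp hrG).resolve_right hrN
  obtain ⟨x, y, hx, hy, hxy⟩ := exists_commuting_of_frattini M p r hpM
    (fun j hj hjd => by
      have hj1 : j = 1 := by
        by_contra hne
        have hj2 : 2 ≤ j := by omega
        exact hp2 (((pow_dvd_pow p hj2).trans hjd).trans hMG)
      rw [hj1, pow_one]
      exact hpr) hrQ hrM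
  have hord : orderOf (x * y) = p * r := by
    rw [hxy.orderOf_mul_eq_mul_orderOf_of_coprime (by rw [hx, hy]; exact hcop), hx, hy,
      mul_comm]
  obtain ⟨g, hg⟩ := exists_orderOf_of_quotient N (p * r) (x * y) hord
  exact hno g hg

end core

section alt

/-- a prime dividing the lcm of a multiset divides a member -/
theorem exists_dvd_of_prime_dvd_lcm {p : ℕ} (hp : p.Prime) (s : Multiset ℕ) (h : p ∣ s.lcm) :
    ∃ c ∈ s, p ∣ c := by
  induction s using Multiset.induction_on with
  | empty =>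
    rw [Multiset.lcm_zero] at h
    exact absurd (Nat.dvd_one.mp h) hp.one_lt.ne'
  | cons a s ih =>
    rw [Multiset.lcm_cons] at h
    rcases (hp.prime.dvd_lcm).mp h with h1 | h1
    · exact ⟨a, Multiset.mem_cons_self a s, h1⟩
    · obtain ⟨c, hc, hpc⟩ := ih h1
      exact ⟨c, Multiset.mem_cons_of_mem hc, hpc⟩

/-- no permutation of `n` points has order `p * r` when `n < p + r` -/
theorem perm_orderOf_ne_mul {n : ℕ} (σ : Equiv.Perm (Fin n)) (p r : ℕ) (hp : p.Prime)
    (hr : r.Prime) (hpr : p ≠ r) (hn : n < p + r) : orderOf σ ≠ p * r := by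
  intro h
  have hl := Equiv.Perm.lcm_cycleType σ
  rw [h] at hl
  have hsum : σ.cycleType.sum ≤ n := by
    rw [Equiv.Perm.sum_cycleType]
    calc σ.support.card ≤ Fintype.card (Fin n) := Finset.card_le_univ _
      _ = n := Fintype.card_fin n
  obtain ⟨c, hc, hpc⟩ := exists_dvd_of_prime_dvd_lcm hp σ.cycleType
    (by rw [hl]; exact dvd_mul_right _ _)
  obtain ⟨c', hc', hrc'⟩ := exists_dvd_of_prime_dvd_lcm hr σ.cycleType
    (by rw [hl]; exact dvd_mul_left _ _)
  have hc2 : 2 ≤ c := Equiv.Perm.two_le_of_mem_cycleType hc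
  have hc2' : 2 ≤ c' := Equiv.Perm.two_le_of_mem_cycleType hc'
  have hp2 := hp.two_le
  have hr2 := hr.two_le
  by_cases hcc : c = c'
  · subst hcc
    have hcop : Nat.Coprime p r := (Nat.coprime_primes hp hr).mpr hpr
    have hd : p * r ∣ c := hcop.mul_dvd_of_dvd_of_dvd hpc hrc'
    have h1 : p * r ≤ c := Nat.le_of_dvd (by omega) hd
    have h2 : c ≤ σ.cycleType.sum := Multiset.le_sum_of_mem hc
    nlinarith
  · obtain ⟨t, ht⟩ := Multiset.exists_cons_of_mem hc
    rw [ht] at hc' hsum
    have hc't : c' ∈ t := by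
      rcases Multiset.mem_cons.mp hc' with h1 | h1
      · exact absurd h1.symm hcc
      · exact h1
    have h2 : c' ≤ t.sum := Multiset.le_sum_of_mem hc't
    rw [Multiset.sum_cons] at hsum
    have h3 : p ≤ c := Nat.le_of_dvd (by omega) hpc
    have h4 : r ≤ c' := Nat.le_of_dvd (by omega) hrc'
    omega

theorem two_mul_card_of_alt {G : Type*} [Group G] [Finite G] (n : ℕ) (hn : 2 ≤ n)
    (hcard : Nat.card G = Nat.card ↥(alternatingGroup (Fin n))) :
    2 * Nat.card G = n.factorial := by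
  haveI : Nontrivial (Fin n) := Fin.nontrivial_iff_two_le.mpr hn
  rw [hcard, two_mul_nat_card_alternatingGroup, Nat.card_perm, Nat.card_eq_fintype_card,
    Fintype.card_fin]

theorem large_prime_dvd (n p N : ℕ) (hN : 2 * N = n.factorial) (hp : p.Prime) (h3 : 3 ≤ p)
    (hpn : p ≤ n) (hnp : n < 2 * p) : p ∣ N ∧ ¬ p ^ 2 ∣ N := by
  constructor
  · have h1 : p ∣ 2 * N := by rw [hN]; exact (Nat.Prime.dvd_factorial hp).mpr hpn
    rcases hp.dvd_mul.mp h1 with h | h
    · have := Nat.le_of_dvd (by norm_num) h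
      omega
    · exact h
  · intro h
    have h1 : p ^ 2 ∣ n.factorial := by rw [← hN]; exact h.trans (dvd_mul_left _ _)
    have hlog : Nat.log p n < 2 := Nat.log_lt_of_lt_pow (by omega) (by nlinarith)
    rw [hp.pow_dvd_factorial_iff hlog] at h1
    have h2 : n / p < 2 := Nat.div_lt_of_lt_mul (by omega)
    simp at h1
    omega

/-- no element of order `p * r` in a group with the spectrum of `A_n` when `n < p + r` -/
theorem no_orderOf_mul_of_spec {G : Type*} [Group G] (n : ℕ)
    (hspec : Set.range (orderOf : G → ℕ) =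
      Set.range (orderOf : ↥(alternatingGroup (Fin n)) → ℕ))
    (p r : ℕ) (hp : p.Prime) (hr : r.Prime) (hpr : p ≠ r) (hn : n < p + r) (g : G) :
    orderOf g ≠ p * r := by
  intro h
  have h1 : p * r ∈ Set.range (orderOf : G → ℕ) := ⟨g, h⟩
  rw [hspec] at h1
  obtain ⟨σ, hσ⟩ := h1
  exact perm_orderOf_ne_mul (σ : Equiv.Perm (Fin n)) p r hp hr hpr hn
    (by rw [Subgroup.orderOf_coe]; exact hσ)

theorem large_not_modEq (n p r : ℕ) (hp : p.Prime) (hr : r.Prime) (h3p : 3 ≤ p)
    (h3r : 3 ≤ r) (hrn : r ≤ n) (hnp : n < 2 * p) : ¬ (r ≡ 1 [MOD p]) := by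
  intro h
  have h1 : p ∣ r - 1 := (Nat.modEq_iff_dvd' (by omega)).mp h.symm
  obtain ⟨c, hc⟩ := h1
  have hpodd : p % 2 = 1 := (hp.eq_two_or_odd).resolve_left (by omega)
  have hrodd : r % 2 = 1 := (hr.eq_two_or_odd).resolve_left (by omega)
  rcases c with _ | _ | c
  · omega
  · omega
  · have : 2 * p ≤ p * (c + 1 + 1) := by nlinarith
    omega

/-- the hypotheses of the section lemma hold for two primes in `(n/2, n]` -/
theorem large_pair {G : Type*} [Group G] [Finite G] (n : ℕ) (hn : 5 ≤ n)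
    (hcard : Nat.card G = Nat.card ↥(alternatingGroup (Fin n)))
    (hspec : Set.range (orderOf : G → ℕ) =
      Set.range (orderOf : ↥(alternatingGroup (Fin n)) → ℕ))
    (p r : ℕ) (hp : p.Prime) (hr : r.Prime) (hpr : p ≠ r)
    (hpn : p ≤ n) (hnp : n < 2 * p) (hrn : r ≤ n) (hnr : n < 2 * r) :
    r ∣ Nat.card G ∧ (∀ g : G, orderOf g ≠ p * r) ∧
      (∀ j : ℕ, 1 ≤ j → r ^ j ∣ Nat.card G → ¬ (r ^ j ≡ 1 [MOD p])) ∧ ¬ (p ≡ 1 [MOD r]) := by
  have h2N := two_mul_card_of_alt n (by omega) hcard
  obtain ⟨hrG, hr2⟩ := large_prime_dvd n r _ h2N hr (by omega) hrn hnr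
  refine ⟨hrG, no_orderOf_mul_of_spec n hspec p r hp hr hpr (by omega), ?_, ?_⟩
  · intro j hj hjd
    have hj1 : j = 1 := by
      by_contra hne
      have hj2 : 2 ≤ j := by omega
      exact hr2 ((pow_dvd_pow r hj2).trans hjd)
    rw [hj1, pow_one]
    exact large_not_modEq n p r hp hr (by omega) (by omega) hrn hnp
  · exact large_not_modEq n r p hr hp (by omega) (by omega) hpn hnr

end alt

end Cfsg.Agent.Lib.Helper19
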