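import Mathlib
import Cfsg.Prelude.Def_Perm
import Cfsg.Agent.Lib.Helper1.CharDecomp
import Cfsg.Agent.Lib.Helper1.CharComplete
import Cfsg.Agent.Lib.Helper1.CharSchur

set_option autoImplicit false
set_option linter.unusedSectionVars false
set_option linter.unusedVariables false
set_option linter.style.haveILetI false

/-! Complex permutation representations: the permutation character, intertwining maps, irreducible
subrepresentations inside a given subrepresentation, and an induction principle saying that a
finite-dimensional complex representation of a finite group is spanned by its irreducible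
subrepresentations. -/

namespace Cfsg.Agent.Lib.Helper19.PermChar

open Representation Module Cfsg.Agent.Lib.Helper1

universe u v

section perm

variable {G : Type u} [Group G]

/-- the character of the permutation representation on functions counts fixed points -/
theorem permRep_character {Ω : Type*} [Fintype Ω] [MulAction G Ω] (g : G) :
    (Cfsg.permRep ℂ G Ω).character g = (Nat.card (MulAction.fixedBy Ω g) : ℂ) := by
  classical
  rw [character_apply, LinearMap.trace_eq_matrix_trace ℂ (Pi.basisFun ℂ Ω)]
  simp only [Matrix.trace, Matrix.diag_apply, LinearMap.toMatrix_apply, Pi.basisFun_apply,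
    Pi.basisFun_repr]
  have h1 : ∀ x : Ω, Cfsg.permRep ℂ G Ω g (Pi.single x (1 : ℂ)) x =
      if g • x = x then 1 else 0 := by
    intro x
    show (Pi.single x (1 : ℂ) : Ω → ℂ) (g⁻¹ • x) = _
    rw [Pi.single_apply]
    by_cases h : g • x = x
    · rw [if_pos h, if_pos]
      rw [inv_smul_eq_iff, h]
    · rw [if_neg h, if_neg]
      intro h2
      apply h
      rw [inv_smul_eq_iff] at h2
      exact h2.symm
  simp only [h1]
  rw [Finset.sum_ite, Finset.sum_const_zero, add_zero, Finset.sum_const, nsmul_eq_mul, mul_one]
  congr 1
  rw [Nat.card_eq_fintype_card, Fintype.card_subtype]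
  rfl

end perm

section general

variable {G : Type u} [Group G]
variable {V : Type v} [AddCommGroup V] [Module ℂ V]

/-- the inclusion of a subrepresentation, as an intertwining map -/
def incl {ρ : Representation ℂ G V} (W : Subrepresentation ρ) :
    IntertwiningMap W.toRepresentation ρ where
  toLinearMap := W.toSubmodule.subtype
  isIntertwining' g := by
    ext w
    rfl

theorem incl_apply {ρ : Representation ℂ G V} (W : Subrepresentation ρ) (w : W.toSubmodule) :
    incl W w = (w : V) := rfl

/-- an endomorphism commuting with the action, as an intertwining map -/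
def ofComm (ρ : Representation ℂ G V) (S : V →ₗ[ℂ] V) (hS : ∀ g, S ∘ₗ ρ g = ρ g ∘ₗ S) :
    IntertwiningMap ρ ρ where
  toLinearMap := S
  isIntertwining' := hS

theorem ofComm_apply (ρ : Representation ℂ G V) (S : V →ₗ[ℂ] V)
    (hS : ∀ g, S ∘ₗ ρ g = ρ g ∘ₗ S) (v : V) : ofComm ρ S hS v = S v := rfl

theorem mem_inv_iff (ρ : Representation ℂ G V) (S : V →ₗ[ℂ] V) :
    S ∈ (ρ.linHom ρ).invariants ↔ ∀ g, S ∘ₗ ρ g = ρ g ∘ₗ S := by
  constructor
  · intro h g
    have h1 : ρ.IsIntertwiningMap ρ S := (mem_linHom_invariants_iff_isIntertwining S).mp h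
    ext v
    exact h1.isIntertwining g v
  · intro h
    exact (mem_linHom_invariants_iff_isIntertwining S).mpr
      ⟨fun g v => LinearMap.congr_fun (h g) v⟩

theorem comm_of_intertwining {ρ : Representation ℂ G V} (S : IntertwiningMap ρ ρ) (g : G) :
    S.toLinearMap ∘ₗ ρ g = ρ g ∘ₗ S.toLinearMap := S.isIntertwining' g

theorem finite_intertwining {W : Type*} [AddCommGroup W] [Module ℂ W] [FiniteDimensional ℂ V]
    [FiniteDimensional ℂ W] (ρ : Representation ℂ G V) (σ : Representation ℂ G W) :
    Module.Finite ℂ (IntertwiningMap ρ σ) :=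
  Module.Finite.equiv (invariantsEquivIntertwiningMap ρ σ)

/-- an irreducible subrepresentation inside a nonzero subrepresentation -/
theorem exists_irr_le [FiniteDimensional ℂ V] (ρ : Representation ℂ G V)
    (C : Subrepresentation ρ) (hC : C.toSubmodule ≠ ⊥) :
    ∃ W : Subrepresentation ρ, W.toRepresentation.IsIrreducible ∧
      W.toSubmodule ≤ C.toSubmodule := by
  classical
  have hex : ∃ n : ℕ, ∃ W : Subrepresentation ρ, W.toSubmodule ≠ ⊥ ∧
      W.toSubmodule ≤ C.toSubmodule ∧ Module.finrank ℂ W.toSubmodule = n :=
    ⟨_, C, hC, le_refl _, rfl⟩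
  obtain ⟨W, hW, hWC, hWn⟩ := Nat.find_spec hex
  have hmin : ∀ W' : Subrepresentation ρ, W'.toSubmodule ≠ ⊥ → W'.toSubmodule ≤ C.toSubmodule →
      Module.finrank ℂ W.toSubmodule ≤ Module.finrank ℂ W'.toSubmodule := by
    intro W' hW' hW'C
    rw [hWn]
    exact Nat.find_min' hex ⟨W', hW', hW'C, rfl⟩
  refine ⟨W, ?_, hWC⟩
  have hnt : Nontrivial (Subrepresentation W.toRepresentation) := by
    refine ⟨⊥, ⊤, ?_⟩
    intro h
    have h2 : (⊥ : Submodule ℂ W.toSubmodule) = ⊤ := congrArg Subrepresentation.toSubmodule h
    have h3 : Subsingleton W.toSubmodule := by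
      rw [← Submodule.subsingleton_iff ℂ]
      exact subsingleton_of_bot_eq_top h2
    exact hW ((Submodule.subsingleton_iff_eq_bot).mp h3)
  refine { toNontrivial := hnt, eq_bot_or_eq_top := ?_ }
  intro U
  by_cases hU : U.toSubmodule = ⊥
  · left
    exact Subrepresentation.toSubmodule_injective hU
  · right
    have hU' : (subrepLift W U).toSubmodule ≠ ⊥ := by
      show U.toSubmodule.map W.toSubmodule.subtype ≠ ⊥
      intro h0
      apply hU
      apply Submodule.map_injective_of_injective W.toSubmodule.subtype_injective
      rw [h0, Submodule.map_bot]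
    have hle : (subrepLift W U).toSubmodule ≤ W.toSubmodule := by
      show U.toSubmodule.map W.toSubmodule.subtype ≤ W.toSubmodule
      exact Submodule.map_subtype_le _ _
    have heq : (subrepLift W U).toSubmodule = W.toSubmodule :=
      Submodule.eq_of_le_of_finrank_le hle (hmin _ hU' (hle.trans hWC))
    apply Subrepresentation.toSubmodule_injective
    show U.toSubmodule = ⊤
    rw [eq_top_iff]
    intro w _
    have : (w : V) ∈ (subrepLift W U).toSubmodule := by rw [heq]; exact w.2
    obtain ⟨u, hu, hu2⟩ := this
    have : u = w := Subtype.ext hu2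
    rw [← this]; exact hu

/-- a finite-dimensional complex representation of a finite group is spanned by its irreducible
subrepresentations -/
theorem irr_induction [Finite G] [FiniteDimensional ℂ V] (ρ : Representation ℂ G V)
    (P : V → Prop) (h0 : P 0) (hadd : ∀ x y, P x → P y → P (x + y))
    (hirr : ∀ W : Subrepresentation ρ, W.toRepresentation.IsIrreducible →
      ∀ w ∈ W.toSubmodule, P w) : ∀ v, P v := by
  classical
  haveI : NeZero (Nat.card G : ℂ) := ⟨by
    have := Nat.card_pos (α := G)
    exact_mod_cast this.ne'⟩
  have := Fintype.ofFinite G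
  let p : {W : Subrepresentation ρ // W.toRepresentation.IsIrreducible} → Submodule ℂ V :=
    fun W => W.1.toSubmodule
  let X : Subrepresentation ρ :=
    { toSubmodule := ⨆ i, p i
      apply_mem_toSubmodule := by
        intro g v hv
        refine Submodule.iSup_induction p (motive := fun x => ρ g x ∈ ⨆ i, p i) hv ?_ ?_ ?_
        · intro W x hx
          exact (le_iSup p W) (W.1.apply_mem_toSubmodule g hx)
        · rw [map_zero]
          exact Submodule.zero_mem _
        · intro x y hx hy
          rw [map_add]
          exact Submodule.add_mem _ hx hy }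
  obtain ⟨C, hC⟩ := exists_isCompl X
  have hC' := subrep_toSubmodule_isCompl hC
  have hCbot : C.toSubmodule = ⊥ := by
    by_contra hne
    obtain ⟨W, hW, hWC⟩ := exists_irr_le ρ C hne
    have hWX : W.toSubmodule ≤ X.toSubmodule := le_iSup p ⟨W, hW⟩
    have h1 : W.toSubmodule ≤ ⊥ := by
      rw [← hC'.inf_eq_bot]
      exact le_inf hWX hWC
    haveI := hW
    have hnt : Nontrivial W.toSubmodule := nontrivial_of_isIrreducible W.toRepresentation
    obtain ⟨w, hw⟩ := exists_ne (0 : W.toSubmodule)
    apply hw
    have h2 := h1 w.2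
    rw [Submodule.mem_bot] at h2
    exact Subtype.ext h2
  have hXtop : X.toSubmodule = ⊤ := by
    have h1 := hC'.sup_eq_top
    rw [hCbot, sup_bot_eq] at h1
    exact h1
  intro v
  have hv : v ∈ ⨆ i, p i := by
    have : v ∈ X.toSubmodule := by rw [hXtop]; exact Submodule.mem_top
    exact this
  refine Submodule.iSup_induction p (motive := P) hv ?_ h0 hadd
  intro W x hx
  exact hirr W.1 W.2 x hx

/-- Maschke: an injective intertwining map has an intertwining retraction -/
theorem exists_retraction [Finite G] {W : Type*} [AddCommGroup W] [Module ℂ W]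
    (ρ : Representation ℂ G V) (σ : Representation ℂ G W) (f : IntertwiningMap σ ρ)
    (hf : Function.Injective f) : ∃ g : IntertwiningMap ρ σ, ∀ w, g (f w) = w := by
  haveI : NeZero (Nat.card G : ℂ) := ⟨by
    have := Nat.card_pos (α := G)
    exact_mod_cast this.ne'⟩
  obtain ⟨g, hg⟩ := MonoidAlgebra.exists_leftInverse_of_injective
    (IntertwiningMap.equivLinearMapAsModule σ ρ f) (by
      rw [LinearMap.ker_eq_bot]
      exact hf)
  refine ⟨(IntertwiningMap.equivLinearMapAsModule ρ σ).symm g, fun w => ?_⟩
  exact LinearMap.congr_fun hg w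

/-- on an irreducible subrepresentation of a multiplicity-free representation every intertwining
endomorphism is a scalar -/
theorem scalar_on_irr [Fintype G] [FiniteDimensional ℂ V] (ρ : Representation ℂ G V)
    (hmf : ∀ χ : G → ℂ, Cfsg.IsIrrCharacter G χ →
      Cfsg.classInner ρ.character χ = 0 ∨ Cfsg.classInner ρ.character χ = 1)
    (W : Subrepresentation ρ) [hW : W.toRepresentation.IsIrreducible]
    (S : IntertwiningMap ρ ρ) : ∃ c : ℂ, ∀ w ∈ W.toSubmodule, S w = c • w := by
  haveI := finite_intertwining W.toRepresentation ρ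
  have h1 := classInner_character ρ W.toRepresentation
  have h2 := hmf _ (isIrrCharacter_character W.toRepresentation)
  have h3 : Module.finrank ℂ (IntertwiningMap W.toRepresentation ρ) ≤ 1 := by
    rcases h2 with h | h
    · rw [h1] at h
      have h4 : Module.finrank ℂ (IntertwiningMap W.toRepresentation ρ) = 0 := by
        exact_mod_cast h
      omega
    · rw [h1] at h
      have h4 : Module.finrank ℂ (IntertwiningMap W.toRepresentation ρ) = 1 := by
        exact_mod_cast h
      omega
  obtain ⟨v₀, hv₀⟩ := finrank_le_one_iff.mp h3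
  obtain ⟨a, ha⟩ := hv₀ (incl W)
  obtain ⟨b, hb⟩ := hv₀ (S.comp (incl W))
  have hnt : Nontrivial W.toSubmodule := nontrivial_of_isIrreducible W.toRepresentation
  have hne : incl W ≠ 0 := by
    intro h
    obtain ⟨w, hw⟩ := exists_ne (0 : W.toSubmodule)
    apply hw
    have h4 : incl W w = (0 : IntertwiningMap W.toRepresentation ρ) w := by rw [h]
    rw [incl_apply] at h4
    exact Subtype.ext h4
  have ha0 : a ≠ 0 := by
    rintro rfl
    rw [zero_smul] at ha
    exact hne ha.symm
  refine ⟨b / a, fun w hw => ?_⟩
  have e1 : S.comp (incl W) = (b / a) • incl W := by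
    rw [← hb]
    conv_rhs => rw [← ha]
    rw [smul_smul]
    congr 1
    field_simp
  have e2 := congrArg (fun f : IntertwiningMap W.toRepresentation ρ => f ⟨w, hw⟩) e1
  exact e2

end general

end Cfsg.Agent.Lib.Helper19.PermChar
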