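import Mathlib
import Cfsg.Prelude.Def_Perm
import Cfsg.Agent.Lib.Helper19.PermChar
import Cfsg.Agent.Lib.Helper1.CharReg
import Cfsg.Agent.Lib.Helper1.CharInt

set_option autoImplicit false
set_option linter.unusedSectionVars false
set_option linter.unusedVariables false
set_option linter.style.haveILetI false

/-! Traces of intertwining endomorphisms: peeling off an irreducible subrepresentation inside an
eigenspace shows that the trace of an endomorphism commuting with the group, all of whose
eigenvalues are algebraic integers, is `f` times an algebraic integer as soon as all irreducible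
constituents have degree divisible by `f`. -/

namespace Cfsg.Agent.Lib.Helper19.PermChar

open Representation Module Cfsg.Agent.Lib.Helper1

universe u v

section step

variable {G : Type u} [Group G]
variable {V : Type v} [AddCommGroup V] [Module ℂ V]

/-- compression of an endomorphism to a complement `U` of `W` -/
noncomputable def compress {ρ : Representation ℂ G V} (W U : Subrepresentation ρ)
    (h : IsCompl W.toSubmodule U.toSubmodule) (B : V →ₗ[ℂ] V) :
    U.toSubmodule →ₗ[ℂ] U.toSubmodule :=
  U.toSubmodule.projectionOnto W.toSubmodule h.symm ∘ₗ B ∘ₗ U.toSubmodule.subtype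

theorem compress_apply {ρ : Representation ℂ G V} (W U : Subrepresentation ρ)
    (h : IsCompl W.toSubmodule U.toSubmodule) (B : V →ₗ[ℂ] V) (u : U.toSubmodule) :
    compress W U h B u = U.toSubmodule.projectionOnto W.toSubmodule h.symm (B (u : V)) := rfl

theorem proj_comm {ρ : Representation ℂ G V} (W U : Subrepresentation ρ)
    (h : IsCompl W.toSubmodule U.toSubmodule) (g : G) (x : V) :
    U.toSubmodule.projectionOnto W.toSubmodule h.symm (ρ g x) =
      U.toRepresentation g (U.toSubmodule.projectionOnto W.toSubmodule h.symm x) := by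
  obtain ⟨u, w, rfl, -⟩ := Submodule.existsUnique_add_of_isCompl h.symm x
  have h1 : ρ g (u : V) ∈ U.toSubmodule := U.apply_mem_toSubmodule g u.2
  have h2 : ρ g (w : V) ∈ W.toSubmodule := W.apply_mem_toSubmodule g w.2
  rw [map_add, map_add, map_add, Submodule.projectionOnto_apply_of_mem_left h.symm h1,
    Submodule.projectionOnto_apply_of_mem_right h.symm h2, Submodule.projectionOnto_apply_left,
    Submodule.projectionOnto_apply_right, add_zero, add_zero]
  rfl

theorem compress_comm {ρ : Representation ℂ G V} (W U : Subrepresentation ρ)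
    (h : IsCompl W.toSubmodule U.toSubmodule) (B : V →ₗ[ℂ] V)
    (hB : ∀ g, B ∘ₗ ρ g = ρ g ∘ₗ B) (g : G) :
    compress W U h B ∘ₗ U.toRepresentation g = U.toRepresentation g ∘ₗ compress W U h B := by
  apply LinearMap.ext
  intro u
  show U.toSubmodule.projectionOnto W.toSubmodule h.symm (B (ρ g (u : V))) =
    U.toRepresentation g (U.toSubmodule.projectionOnto W.toSubmodule h.symm (B (u : V)))
  rw [← proj_comm W U h g (B (u : V))]
  congr 1
  exact LinearMap.congr_fun (hB g) (u : V)

theorem trace_compress [FiniteDimensional ℂ V] {ρ : Representation ℂ G V}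
    (W U : Subrepresentation ρ) (h : IsCompl W.toSubmodule U.toSubmodule) (B : V →ₗ[ℂ] V)
    (lam : ℂ) (hlam : ∀ w ∈ W.toSubmodule, B w = lam • w) :
    LinearMap.trace ℂ V B = lam * (Module.finrank ℂ W.toSubmodule : ℂ) +
      LinearMap.trace ℂ U.toSubmodule (compress W U h B) := by
  have hid := Submodule.projection_add_projection_eq_id h
  have hB : B = B ∘ₗ (W.toSubmodule.projection U.toSubmodule h) +
      B ∘ₗ (U.toSubmodule.projection W.toSubmodule h.symm) := by
    rw [← LinearMap.comp_add, hid, LinearMap.comp_id]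
  conv_lhs => rw [hB]
  rw [map_add]
  have e1 : LinearMap.trace ℂ V (B ∘ₗ W.toSubmodule.projection U.toSubmodule h) =
      lam * (Module.finrank ℂ W.toSubmodule : ℂ) := by
    have h1 : B ∘ₗ W.toSubmodule.projection U.toSubmodule h =
        (B ∘ₗ W.toSubmodule.subtype) ∘ₗ W.toSubmodule.projectionOnto U.toSubmodule h := rfl
    rw [h1, LinearMap.trace_comp_comm']
    have h2 : W.toSubmodule.projectionOnto U.toSubmodule h ∘ₗ (B ∘ₗ W.toSubmodule.subtype) =
        lam • LinearMap.id := by
      apply LinearMap.ext
      intro w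
      show W.toSubmodule.projectionOnto U.toSubmodule h (B (w : V)) = lam • w
      rw [hlam w w.2, map_smul, Submodule.projectionOnto_apply_left]
    rw [h2, map_smul, LinearMap.trace_id, smul_eq_mul]
  have e2 : LinearMap.trace ℂ V (B ∘ₗ U.toSubmodule.projection W.toSubmodule h.symm) =
      LinearMap.trace ℂ U.toSubmodule (compress W U h B) := by
    have h1 : B ∘ₗ U.toSubmodule.projection W.toSubmodule h.symm =
        (B ∘ₗ U.toSubmodule.subtype) ∘ₗ U.toSubmodule.projectionOnto W.toSubmodule h.symm := rfl
    rw [h1, LinearMap.trace_comp_comm']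
    rfl
  rw [e1, e2]

theorem eigen_compress {ρ : Representation ℂ G V} (W U : Subrepresentation ρ)
    (h : IsCompl W.toSubmodule U.toSubmodule) (B : V →ₗ[ℂ] V)
    (lam : ℂ) (hlam : ∀ w ∈ W.toSubmodule, B w = lam • w) (μ : ℂ)
    (hμ : Module.End.HasEigenvalue (compress W U h B) μ) : Module.End.HasEigenvalue B μ := by
  obtain ⟨u, hu⟩ := hμ.exists_hasEigenvector
  have hu1 : compress W U h B u = μ • u := hu.apply_eq_smul
  have hu0 : u ≠ 0 := hu.2
  obtain ⟨w₀, hw₀def⟩ : ∃ w₀ : V, w₀ = B (u : V) -
    U.toSubmodule.projection W.toSubmodule h.symm (B (u : V)) := ⟨_, rfl⟩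
  have hw₀ : w₀ ∈ W.toSubmodule := by
    rw [hw₀def]
    exact Submodule.sub_projection_mem h.symm (B (u : V))
  have hproj : U.toSubmodule.projection W.toSubmodule h.symm (B (u : V)) = μ • (u : V) := by
    have h1 : U.toSubmodule.projection W.toSubmodule h.symm (B (u : V)) =
        ((compress W U h B u : U.toSubmodule) : V) := rfl
    rw [h1, hu1]
    rfl
  have hBu : B (u : V) = μ • (u : V) + w₀ := by
    rw [hw₀def, hproj]
    abel
  have huV : (u : V) ≠ 0 := fun h0 => hu0 (Subtype.ext h0)
  by_cases hμl : μ = lam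
  · by_cases hw0 : w₀ = 0
    · rw [hw0, add_zero] at hBu
      exact Module.End.hasEigenvalue_of_hasEigenvector
        ⟨Module.End.mem_eigenspace_iff.mpr hBu, huV⟩
    · exact Module.End.hasEigenvalue_of_hasEigenvector
        ⟨Module.End.mem_eigenspace_iff.mpr (by rw [hμl]; exact hlam w₀ hw₀), hw0⟩
  · have hne : μ - lam ≠ 0 := sub_ne_zero.mpr hμl
    have hc : (1 : ℂ) + (μ - lam)⁻¹ * lam = μ * (μ - lam)⁻¹ := by
      field_simp
      ring
    have hx : B ((u : V) + (μ - lam)⁻¹ • w₀) = μ • ((u : V) + (μ - lam)⁻¹ • w₀) := by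
      calc B ((u : V) + (μ - lam)⁻¹ • w₀) = B (u : V) + (μ - lam)⁻¹ • B w₀ := by
            rw [map_add, map_smul]
        _ = (μ • (u : V) + w₀) + (μ - lam)⁻¹ • (lam • w₀) := by rw [hBu, hlam w₀ hw₀]
        _ = μ • (u : V) + ((1 : ℂ) + (μ - lam)⁻¹ * lam) • w₀ := by
            rw [add_smul, one_smul, mul_smul, add_assoc]
        _ = μ • (u : V) + (μ * (μ - lam)⁻¹) • w₀ := by rw [hc]
        _ = μ • ((u : V) + (μ - lam)⁻¹ • w₀) := by rw [smul_add, mul_smul]
    have hx0 : (u : V) + (μ - lam)⁻¹ • w₀ ≠ 0 := by
      intro h0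
      apply huV
      have h1 : (u : V) = -((μ - lam)⁻¹ • w₀) := eq_neg_of_add_eq_zero_left h0
      have h2 : (u : V) ∈ W.toSubmodule := by
        rw [h1]
        exact Submodule.neg_mem _ (Submodule.smul_mem _ _ hw₀)
      exact Submodule.disjoint_def.mp h.disjoint (u : V) h2 u.2
    exact Module.End.hasEigenvalue_of_hasEigenvector ⟨Module.End.mem_eigenspace_iff.mpr hx, hx0⟩

end step

section induction

variable {G : Type u} [Group G] [Fintype G]

/-- if all irreducible constituents have degree divisible by `f`, then the trace of an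
intertwining endomorphism with algebraic-integer eigenvalues is `f` times an algebraic integer -/
theorem trace_dvd_aux (f : ℕ) : ∀ (n : ℕ) (V : Type v) [AddCommGroup V] [Module ℂ V]
    [FiniteDimensional ℂ V] (ρ : Representation ℂ G V) (B : V →ₗ[ℂ] V),
    Module.finrank ℂ V = n → (∀ g, B ∘ₗ ρ g = ρ g ∘ₗ B) →
    (∀ μ, Module.End.HasEigenvalue B μ → IsIntegral ℤ μ) →
    (∀ χ : G → ℂ, Cfsg.IsIrrCharacter G χ → Cfsg.classInner ρ.character χ ≠ 0 →
      ∃ m : ℕ, χ 1 = (f : ℂ) * m) →
    ∃ t : ℂ, IsIntegral ℤ t ∧ LinearMap.trace ℂ V B = (f : ℂ) * t := by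
  intro n
  induction n using Nat.strong_induction_on with
  | _ n ih =>
  intro V _ _ _ ρ B hn hB hint hdeg
  by_cases hV : Subsingleton V
  · refine ⟨0, isIntegral_zero, ?_⟩
    have hB0 : B = 0 := by
      apply LinearMap.ext
      intro v
      exact Subsingleton.elim _ _
    rw [hB0, map_zero, mul_zero]
  · haveI : Nontrivial V := not_subsingleton_iff_nontrivial.mp hV
    obtain ⟨lam, hlam⟩ := Module.End.exists_eigenvalue B
    have hlamint := hint lam hlam
    let E : Subrepresentation ρ :=
      { toSubmodule := Module.End.eigenspace B lam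
        apply_mem_toSubmodule := by
          intro g v hv
          rw [Module.End.mem_eigenspace_iff] at hv ⊢
          have h1 : B (ρ g v) = ρ g (B v) := LinearMap.congr_fun (hB g) v
          rw [h1, hv, map_smul] }
    have hEne : E.toSubmodule ≠ ⊥ := Module.End.hasEigenvalue_iff.mp hlam
    obtain ⟨W, hW, hWE⟩ := exists_irr_le ρ E hEne
    haveI := hW
    haveI : NeZero (Nat.card G : ℂ) := ⟨by
      have := Nat.card_pos (α := G)
      exact_mod_cast this.ne'⟩
    obtain ⟨U, hU⟩ := exists_isCompl W
    have hc := subrep_toSubmodule_isCompl hU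
    have hlamW : ∀ w ∈ W.toSubmodule, B w = lam • w :=
      fun w hw => Module.End.mem_eigenspace_iff.mp (hWE hw)
    have hlt := finrank_lt_of_isCompl_irreducible hW hU
    have hchar := char_of_isCompl hU
    have hdegU : ∀ χ : G → ℂ, Cfsg.IsIrrCharacter G χ →
        Cfsg.classInner U.toRepresentation.character χ ≠ 0 → ∃ m : ℕ, χ 1 = (f : ℂ) * m := by
      intro χ hχ hne
      apply hdeg χ hχ
      rw [hchar, classInner_add_left]
      obtain ⟨a, ha⟩ := IsCharacter.classInner_irr_nat
        (isCharacter_character W.toRepresentation) hχ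
      obtain ⟨b, hb⟩ := IsCharacter.classInner_irr_nat
        (isCharacter_character U.toRepresentation) hχ
      rw [ha, hb]
      rw [hb] at hne
      intro h0
      apply hne
      have h1 : a + b = 0 := by exact_mod_cast h0
      have h2 : b = 0 := by omega
      rw [h2, Nat.cast_zero]
    obtain ⟨t', ht', htr'⟩ := ih (Module.finrank ℂ U.toSubmodule) (by rw [← hn]; exact hlt)
      U.toSubmodule U.toRepresentation (compress W U hc B) rfl (compress_comm W U hc B hB)
      (fun μ hμ => hint μ (eigen_compress W U hc B lam hlamW μ hμ)) hdegU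
    obtain ⟨m, hm⟩ : ∃ m : ℕ, (Module.finrank ℂ W.toSubmodule : ℂ) = (f : ℂ) * m := by
      have hχW := isIrrCharacter_character W.toRepresentation
      obtain ⟨m, hm⟩ := hdeg _ hχW (by
        rw [hchar, classInner_add_left, classInner_irr_self hχW]
        obtain ⟨b, hb⟩ := IsCharacter.classInner_irr_nat
          (isCharacter_character U.toRepresentation) hχW
        rw [hb]
        intro h0
        have h1 : 1 + b = 0 := by exact_mod_cast h0
        omega)
      exact ⟨m, by rw [← hm, char_one]⟩
    have hmint : IsIntegral ℤ (m : ℂ) := by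
      have := isIntegral_algebraMap (R := ℤ) (A := ℂ) (x := (m : ℤ))
      simpa using this
    refine ⟨lam * m + t', (hlamint.mul hmint).add ht', ?_⟩
    rw [trace_compress W U hc B lam hlamW, htr', hm]
    ring

end induction

end Cfsg.Agent.Lib.Helper19.PermChar
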