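import Mathlib
import Cfsg.Prelude.Def_Perm
import Cfsg.Agent.Lib.Helper19.PermChar2

set_option autoImplicit false
set_option linter.unusedSectionVars false
set_option linter.unusedVariables false
set_option linter.style.haveILetI false

/-! Orbitals of a transitive action and their adjacency operators on the complex permutation
module; the structure constants of a rank three action. -/

namespace Cfsg.Agent.Lib.Helper19.PermChar

open Representation Module Cfsg.Agent.Lib.Helper1

section orbital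

variable {G : Type*} [Group G] {Ω : Type*} [MulAction G Ω]

theorem orbital_smul_iff (a b : Ω) (g : G) (x y : Ω) :
    (g • x, g • y) ∈ MulAction.orbit G (a, b) ↔ (x, y) ∈ MulAction.orbit G (a, b) := by
  have h1 : (g • x, g • y) = g • (x, y) := rfl
  rw [h1, ← MulAction.orbit_eq_iff, MulAction.orbit_smul, MulAction.orbit_eq_iff]

theorem orbital_base (a b z : Ω) :
    (a, z) ∈ MulAction.orbit G (a, b) ↔ z ∈ MulAction.orbit (MulAction.stabilizer G a) b := by
  constructor
  · rintro ⟨h, hh⟩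
    have h1 : h • a = a := congrArg Prod.fst hh
    have h2 : h • b = z := congrArg Prod.snd hh
    exact ⟨⟨h, h1⟩, h2⟩
  · rintro ⟨⟨h, hh⟩, h2⟩
    refine ⟨h, ?_⟩
    have h1 : h • a = a := hh
    have h2' : h • b = z := h2
    show (h • a, h • b) = (a, z)
    rw [h1, h2']

theorem orbital_diag {a b : Ω} (hab : b ≠ a) (x : Ω) : (x, x) ∉ MulAction.orbit G (a, b) := by
  rintro ⟨g, hg⟩
  have h1 : g • a = x := congrArg Prod.fst hg
  have h2 : g • b = x := congrArg Prod.snd hg
  exact hab (smul_left_cancel g (h2.trans h1.symm))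

variable [Fintype Ω]

open Classical in
theorem orbital_count [MulAction.IsPretransitive G Ω] (a b x : Ω) :
    (Finset.univ.filter (fun y => (x, y) ∈ MulAction.orbit G (a, b))).card =
      Nat.card (MulAction.orbit (MulAction.stabilizer G a) b) := by
  obtain ⟨g, rfl⟩ := MulAction.exists_smul_eq G a x
  rw [← Fintype.card_subtype, ← Nat.card_eq_fintype_card]
  let e : {y // (g • a, y) ∈ MulAction.orbit G (a, b)} ≃
      ↥(MulAction.orbit (MulAction.stabilizer G a) b) :=
    { toFun := fun y => ⟨g⁻¹ • y.1, (orbital_base a b _).mp (by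
          have h1 := (orbital_smul_iff a b g⁻¹ (g • a) y.1).mpr y.2
          rwa [inv_smul_smul] at h1)⟩
      invFun := fun z => ⟨g • z.1, (orbital_smul_iff a b g a z.1).mpr ((orbital_base a b _).mpr z.2)⟩
      left_inv := fun y => Subtype.ext (smul_inv_smul g y.1)
      right_inv := fun z => Subtype.ext (inv_smul_smul g z.1) }
  exact Nat.card_congr e

open Classical in
/-- the adjacency operator of the orbital of `(a, b)` -/
noncomputable def adj (G : Type*) [Group G] {Ω : Type*} [MulAction G Ω] [Fintype Ω] (a b : Ω) :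
    (Ω → ℂ) →ₗ[ℂ] (Ω → ℂ) :=
  Matrix.toLin' ((Matrix.of fun x y =>
    if (x, y) ∈ MulAction.orbit G (a, b) then (1 : ℤ) else 0).map (Int.castRingHom ℂ))

open Classical in
theorem adj_apply (a b : Ω) (v : Ω → ℂ) (x : Ω) :
    adj G a b v x = ∑ y, (if (x, y) ∈ MulAction.orbit G (a, b) then v y else 0) := by
  rw [adj, Matrix.toLin'_apply, Matrix.mulVec, dotProduct]
  apply Finset.sum_congr rfl
  intro y _
  rw [Matrix.map_apply, Matrix.of_apply]
  by_cases h : (x, y) ∈ MulAction.orbit G (a, b)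
  · simp [h]
  · simp [h]

theorem adj_comm (a b : Ω) (g : G) :
    adj G a b ∘ₗ Cfsg.permRep ℂ G Ω g = Cfsg.permRep ℂ G Ω g ∘ₗ adj G a b := by
  classical
  apply LinearMap.ext
  intro v
  funext x
  show adj G a b (Cfsg.permRep ℂ G Ω g v) x = (adj G a b v) (g⁻¹ • x)
  rw [adj_apply, adj_apply]
  have h1 := Equiv.sum_comp (MulAction.toPerm g⁻¹)
    (fun y => if (g⁻¹ • x, y) ∈ MulAction.orbit G (a, b) then v y else 0)
  rw [← h1]
  apply Finset.sum_congr rfl
  intro y _
  show (if (x, y) ∈ MulAction.orbit G (a, b) then v (g⁻¹ • y) else 0) =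
    if (g⁻¹ • x, g⁻¹ • y) ∈ MulAction.orbit G (a, b) then v (g⁻¹ • y) else 0
  by_cases h : (x, y) ∈ MulAction.orbit G (a, b)
  · rw [if_pos h, if_pos ((orbital_smul_iff a b g⁻¹ x y).mpr h)]
  · rw [if_neg h, if_neg (fun h' => h ((orbital_smul_iff a b g⁻¹ x y).mp h'))]

theorem adj_one [MulAction.IsPretransitive G Ω] (a b : Ω) (x : Ω) :
    adj G a b (fun _ => (1 : ℂ)) x =
      (Nat.card (MulAction.orbit (MulAction.stabilizer G a) b) : ℂ) := by
  classical
  rw [adj_apply, Finset.sum_boole, orbital_count]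

theorem adj_const [MulAction.IsPretransitive G Ω] (a b : Ω) :
    ∀ w ∈ (Cfsg.permConstants ℂ G Ω).toSubmodule, adj G a b w =
      (Nat.card (MulAction.orbit (MulAction.stabilizer G a) b) : ℂ) • w := by
  intro w hw
  obtain ⟨c, rfl⟩ := Submodule.mem_span_singleton.mp hw
  have h1 : adj G a b (fun _ => (1 : ℂ)) =
      (Nat.card (MulAction.orbit (MulAction.stabilizer G a) b) : ℂ) • (fun _ => (1 : ℂ)) := by
    funext x
    rw [adj_one]
    simp
  rw [map_smul, h1, smul_comm]

theorem adj_trace {a b : Ω} (hab : b ≠ a) : LinearMap.trace ℂ (Ω → ℂ) (adj G a b) = 0 := by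
  classical
  rw [adj, Matrix.trace_toLin'_eq, Matrix.trace]
  apply Finset.sum_eq_zero
  intro x _
  rw [Matrix.diag_apply, Matrix.map_apply, Matrix.of_apply]
  simp [orbital_diag hab x]

theorem adj_integral (a b : Ω) (μ : ℂ) (hμ : Module.End.HasEigenvalue (adj G a b) μ) :
    IsIntegral ℤ μ := by
  classical
  rw [Module.End.hasEigenvalue_iff_isRoot_charpoly] at hμ
  rw [adj, Matrix.charpoly_toLin', Matrix.charpoly_map, Polynomial.IsRoot.def,
    Polynomial.eval_map] at hμ
  exact ⟨_, Matrix.charpoly_monic _, hμ⟩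

end orbital

section complement

variable {G : Type*} [Group G] {Ω : Type*} [MulAction G Ω] [Fintype Ω]

theorem isCompl_const_sumZero [Nonempty Ω] :
    IsCompl (Cfsg.permConstants ℂ G Ω).toSubmodule (Cfsg.permSumZero ℂ G Ω).toSubmodule := by
  have hn : (Fintype.card Ω : ℂ) ≠ 0 := by
    have := Fintype.card_pos (α := Ω)
    exact_mod_cast this.ne'
  constructor
  · rw [Submodule.disjoint_def]
    intro v hv1 hv2
    obtain ⟨c, rfl⟩ := Submodule.mem_span_singleton.mp hv1
    have h1 : ∑ x : Ω, (c • (fun _ : Ω => (1 : ℂ))) x = 0 := hv2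
    simp only [Pi.smul_apply, smul_eq_mul, mul_one, Finset.sum_const, Finset.card_univ,
      nsmul_eq_mul] at h1
    have hc : c = 0 := by
      rcases mul_eq_zero.mp h1 with h | h
      · exact absurd h hn
      · exact h
    rw [hc, zero_smul]
  · rw [codisjoint_iff, eq_top_iff]
    intro v _
    rw [Submodule.mem_sup]
    refine ⟨((∑ x, v x) / (Fintype.card Ω : ℂ)) • (fun _ => (1 : ℂ)),
      Submodule.mem_span_singleton.mpr ⟨_, rfl⟩,
      v - ((∑ x, v x) / (Fintype.card Ω : ℂ)) • (fun _ => (1 : ℂ)), ?_, by abel⟩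
    have hgoal : ∑ x : Ω, (v - ((∑ x, v x) / (Fintype.card Ω : ℂ)) • (fun _ : Ω => (1 : ℂ)) :
        Ω → ℂ) x = 0 := by
      simp only [Pi.sub_apply, Pi.smul_apply, smul_eq_mul, mul_one, Finset.sum_sub_distrib,
        Finset.sum_const, Finset.card_univ, nsmul_eq_mul]
      field_simp
      ring
    exact hgoal

theorem subrep_isCompl {V : Type*} [AddCommGroup V] [Module ℂ V] {ρ : Representation ℂ G V}
    {W U : Subrepresentation ρ} (h : IsCompl W.toSubmodule U.toSubmodule) : IsCompl W U := by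
  constructor
  · rw [disjoint_iff]
    apply Subrepresentation.toSubmodule_injective
    exact h.inf_eq_bot
  · rw [codisjoint_iff]
    apply Subrepresentation.toSubmodule_injective
    exact h.sup_eq_top

end complement

section rank3

variable {G : Type*} [Group G] {Ω : Type*} [MulAction G Ω] [Fintype Ω]

/-- the three suborbits of a rank three action -/
theorem three_orbits (a₀ : Ω)
    (hrank : Nat.card (MulAction.orbitRel.Quotient (MulAction.stabilizer G a₀) Ω) = 3) :
    ∃ b₁ b₂ : Ω, b₁ ≠ a₀ ∧ b₂ ≠ a₀ ∧ b₂ ∉ MulAction.orbit (MulAction.stabilizer G a₀) b₁ ∧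
      ∀ z : Ω, z = a₀ ∨ z ∈ MulAction.orbit (MulAction.stabilizer G a₀) b₁ ∨
        z ∈ MulAction.orbit (MulAction.stabilizer G a₀) b₂ := by
  classical
  haveI : Fintype (MulAction.orbitRel.Quotient (MulAction.stabilizer G a₀) Ω) :=
    Fintype.ofFinite _
  rw [Nat.card_eq_fintype_card, ← Finset.card_univ, Finset.card_eq_three] at hrank
  obtain ⟨q₁, q₂, q₃, h12, h13, h23, huniv⟩ := hrank
  have horba : ∀ z : Ω, z ∈ MulAction.orbit (MulAction.stabilizer G a₀) a₀ → z = a₀ := by
    rintro z ⟨h, hh⟩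
    have h1 : (h : G) • a₀ = a₀ := h.2
    have h2 : (h : G) • a₀ = z := hh
    rw [← h2, h1]
  have key : ∀ p₁ p₂ : MulAction.orbitRel.Quotient (MulAction.stabilizer G a₀) Ω,
      p₁ ≠ Quotient.mk'' a₀ → p₂ ≠ Quotient.mk'' a₀ → p₁ ≠ p₂ →
      (∀ q : MulAction.orbitRel.Quotient (MulAction.stabilizer G a₀) Ω,
        q = Quotient.mk'' a₀ ∨ q = p₁ ∨ q = p₂) →
      ∃ b₁ b₂ : Ω, b₁ ≠ a₀ ∧ b₂ ≠ a₀ ∧ b₂ ∉ MulAction.orbit (MulAction.stabilizer G a₀) b₁ ∧
        ∀ z : Ω, z = a₀ ∨ z ∈ MulAction.orbit (MulAction.stabilizer G a₀) b₁ ∨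
          z ∈ MulAction.orbit (MulAction.stabilizer G a₀) b₂ := by
    intro p₁ p₂ hp1 hp2 hp12 hall
    have hmem : ∀ (p : MulAction.orbitRel.Quotient (MulAction.stabilizer G a₀) Ω) (z : Ω),
        Quotient.mk'' z = p → z ∈ MulAction.orbit (MulAction.stabilizer G a₀) p.out := by
      intro p z hz
      have h1 : (Quotient.mk'' z : MulAction.orbitRel.Quotient (MulAction.stabilizer G a₀) Ω) =
          Quotient.mk'' p.out := by rw [Quotient.out_eq', hz]
      exact MulAction.orbitRel_apply.mp (Quotient.exact' h1)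
    refine ⟨p₁.out, p₂.out, ?_, ?_, ?_, ?_⟩
    · intro h
      apply hp1
      exact (Quotient.out_eq' p₁).symm.trans (congrArg
        (Quotient.mk'' : Ω → MulAction.orbitRel.Quotient (MulAction.stabilizer G a₀) Ω) h)
    · intro h
      apply hp2
      exact (Quotient.out_eq' p₂).symm.trans (congrArg
        (Quotient.mk'' : Ω → MulAction.orbitRel.Quotient (MulAction.stabilizer G a₀) Ω) h)
    · intro h
      apply hp12
      have h1 : (Quotient.mk'' p₂.out :
          MulAction.orbitRel.Quotient (MulAction.stabilizer G a₀) Ω) = Quotient.mk'' p₁.out :=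
        Quotient.sound' (MulAction.orbitRel_apply.mpr h)
      rw [Quotient.out_eq', Quotient.out_eq'] at h1
      exact h1.symm
    · intro z
      rcases hall (Quotient.mk'' z) with h | h | h
      · left
        exact horba z (MulAction.orbitRel_apply.mp (Quotient.exact' h))
      · right
        left
        exact hmem p₁ z h
      · right
        right
        exact hmem p₂ z h
  have hmem3 : ∀ q : MulAction.orbitRel.Quotient (MulAction.stabilizer G a₀) Ω,
      q = q₁ ∨ q = q₂ ∨ q = q₃ := by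
    intro q
    have h := Finset.mem_univ q
    rw [huniv] at h
    simpa using h
  rcases hmem3 (Quotient.mk'' a₀) with h | h | h
  · refine key q₂ q₃ (h ▸ h12.symm) (h ▸ h13.symm) h23 (fun q => ?_)
    rcases hmem3 q with h' | h' | h'
    · left
      rw [h', h]
    · right
      left
      exact h'
    · right
      right
      exact h'
  · refine key q₁ q₃ (h ▸ h12) (h ▸ h23.symm) h13 (fun q => ?_)
    rcases hmem3 q with h' | h' | h'
    · right
      left
      exact h'
    · left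
      rw [h', h]
    · right
      right
      exact h'
  · refine key q₁ q₂ (h ▸ h13) (h ▸ h23) h12 (fun q => ?_)
    rcases hmem3 q with h' | h' | h'
    · right
      left
      exact h'
    · right
      right
      exact h'
    · left
      rw [h', h]

theorem pair_cases [MulAction.IsPretransitive G Ω] (a₀ b₁ b₂ : Ω)
    (hall : ∀ z : Ω, z = a₀ ∨ z ∈ MulAction.orbit (MulAction.stabilizer G a₀) b₁ ∨
        z ∈ MulAction.orbit (MulAction.stabilizer G a₀) b₂) (x y : Ω) :
    x = y ∨ (x, y) ∈ MulAction.orbit G (a₀, b₁) ∨ (x, y) ∈ MulAction.orbit G (a₀, b₂) := by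
  obtain ⟨g, rfl⟩ := MulAction.exists_smul_eq G a₀ x
  rcases hall (g⁻¹ • y) with h | h | h
  · left
    rw [← h, smul_inv_smul]
  · right
    left
    have h2 := (orbital_smul_iff a₀ b₁ g a₀ (g⁻¹ • y)).mpr ((orbital_base a₀ b₁ _).mpr h)
    rwa [smul_inv_smul] at h2
  · right
    right
    have h2 := (orbital_smul_iff a₀ b₂ g a₀ (g⁻¹ • y)).mpr ((orbital_base a₀ b₂ _).mpr h)
    rwa [smul_inv_smul] at h2

theorem pair_disj (a₀ b₁ b₂ : Ω) (h12 : b₂ ∉ MulAction.orbit (MulAction.stabilizer G a₀) b₁)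
    (x y : Ω) : ¬ ((x, y) ∈ MulAction.orbit G (a₀, b₁) ∧ (x, y) ∈ MulAction.orbit G (a₀, b₂)) := by
  rintro ⟨h1, h2⟩
  have e1 := MulAction.orbit_eq_iff.mpr h1
  have e2 := MulAction.orbit_eq_iff.mpr h2
  have h3 : (a₀, b₂) ∈ MulAction.orbit G (a₀, b₁) := by
    rw [← e1, e2]
    exact MulAction.mem_orbit_self _
  exact h12 ((orbital_base a₀ b₁ b₂).mp h3)

open Classical in
theorem ind_sum [MulAction.IsPretransitive G Ω] (a₀ b₁ b₂ : Ω) (hb1 : b₁ ≠ a₀) (hb2 : b₂ ≠ a₀)
    (h12 : b₂ ∉ MulAction.orbit (MulAction.stabilizer G a₀) b₁)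
    (hall : ∀ z : Ω, z = a₀ ∨ z ∈ MulAction.orbit (MulAction.stabilizer G a₀) b₁ ∨
        z ∈ MulAction.orbit (MulAction.stabilizer G a₀) b₂) (x y : Ω) :
    (if x = y then (1 : ℂ) else 0) + (if (x, y) ∈ MulAction.orbit G (a₀, b₁) then 1 else 0) +
      (if (x, y) ∈ MulAction.orbit G (a₀, b₂) then 1 else 0) = 1 := by
  rcases pair_cases a₀ b₁ b₂ hall x y with h | h | h
  · subst h
    simp [orbital_diag (G := G) hb1 x, orbital_diag (G := G) hb2 x]
  · have hxy : x ≠ y := fun e => orbital_diag (G := G) hb1 x (by rw [e] at h ⊢; exact h)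
    have h2 : (x, y) ∉ MulAction.orbit G (a₀, b₂) := fun h' => pair_disj a₀ b₁ b₂ h12 x y ⟨h, h'⟩
    simp [hxy, h, h2]
  · have hxy : x ≠ y := fun e => orbital_diag (G := G) hb2 x (by rw [e] at h ⊢; exact h)
    have h2 : (x, y) ∉ MulAction.orbit G (a₀, b₁) := fun h' => pair_disj a₀ b₁ b₂ h12 x y ⟨h', h⟩
    simp [hxy, h, h2]

/-- the sum of the three adjacency operators is the all-ones operator -/
theorem adj_add [MulAction.IsPretransitive G Ω] (a₀ b₁ b₂ : Ω) (hb1 : b₁ ≠ a₀) (hb2 : b₂ ≠ a₀)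
    (h12 : b₂ ∉ MulAction.orbit (MulAction.stabilizer G a₀) b₁)
    (hall : ∀ z : Ω, z = a₀ ∨ z ∈ MulAction.orbit (MulAction.stabilizer G a₀) b₁ ∨
        z ∈ MulAction.orbit (MulAction.stabilizer G a₀) b₂) (v : Ω → ℂ) (x : Ω) :
    v x + adj G a₀ b₁ v x + adj G a₀ b₂ v x = ∑ y, v y := by
  classical
  rw [adj_apply, adj_apply]
  have h1 : v x = ∑ y, (if x = y then v y else 0) := by
    rw [Finset.sum_ite_eq]
    simp
  rw [h1, ← Finset.sum_add_distrib, ← Finset.sum_add_distrib]
  apply Finset.sum_congr rfl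
  intro y _
  have h2 := ind_sum a₀ b₁ b₂ hb1 hb2 h12 hall x y
  have h3 : (if x = y then v y else 0) + (if (x, y) ∈ MulAction.orbit G (a₀, b₁) then v y else 0) +
      (if (x, y) ∈ MulAction.orbit G (a₀, b₂) then v y else 0) =
      ((if x = y then (1 : ℂ) else 0) + (if (x, y) ∈ MulAction.orbit G (a₀, b₁) then 1 else 0) +
      (if (x, y) ∈ MulAction.orbit G (a₀, b₂) then 1 else 0)) * v y := by
    simp only [add_mul, ite_mul, one_mul, zero_mul]
  rw [h3, h2, one_mul]

/-- the subdegrees add up to the degree -/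
theorem card_eq_subdegrees [MulAction.IsPretransitive G Ω] (a₀ b₁ b₂ : Ω) (hb1 : b₁ ≠ a₀)
    (hb2 : b₂ ≠ a₀) (h12 : b₂ ∉ MulAction.orbit (MulAction.stabilizer G a₀) b₁)
    (hall : ∀ z : Ω, z = a₀ ∨ z ∈ MulAction.orbit (MulAction.stabilizer G a₀) b₁ ∨
        z ∈ MulAction.orbit (MulAction.stabilizer G a₀) b₂) :
    Fintype.card Ω = 1 + Nat.card (MulAction.orbit (MulAction.stabilizer G a₀) b₁) +
      Nat.card (MulAction.orbit (MulAction.stabilizer G a₀) b₂) := by
  have h1 := adj_add a₀ b₁ b₂ hb1 hb2 h12 hall (fun _ => (1 : ℂ)) a₀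
  rw [adj_one, adj_one] at h1
  simp only [Finset.sum_const, Finset.card_univ, nsmul_eq_mul, mul_one] at h1
  exact_mod_cast h1.symm

/-- the orbital is self-paired when the two subdegrees differ -/
theorem self_paired [MulAction.IsPretransitive G Ω] (a₀ b₁ b₂ : Ω) (hb1 : b₁ ≠ a₀)
    (hb2 : b₂ ≠ a₀) (h12 : b₂ ∉ MulAction.orbit (MulAction.stabilizer G a₀) b₁)
    (hall : ∀ z : Ω, z = a₀ ∨ z ∈ MulAction.orbit (MulAction.stabilizer G a₀) b₁ ∨
        z ∈ MulAction.orbit (MulAction.stabilizer G a₀) b₂)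
    (hkl : Nat.card (MulAction.orbit (MulAction.stabilizer G a₀) b₁) ≠
      Nat.card (MulAction.orbit (MulAction.stabilizer G a₀) b₂)) :
    ∀ x y : Ω, (x, y) ∈ MulAction.orbit G (a₀, b₁) → (y, x) ∈ MulAction.orbit G (a₀, b₁) := by
  classical
  have hswap : ∀ (c d : Ω) (x y : Ω), (x, y) ∈ MulAction.orbit G (a₀, b₁) →
      (b₁, a₀) ∈ MulAction.orbit G (c, d) → (y, x) ∈ MulAction.orbit G (c, d) := by
    rintro c d x y ⟨g, hg⟩ h
    have h1 : g • a₀ = x := congrArg Prod.fst hg
    have h2 : g • b₁ = y := congrArg Prod.snd hg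
    rw [← h1, ← h2]
    exact (orbital_smul_iff c d g b₁ a₀).mpr h
  rcases pair_cases a₀ b₁ b₂ hall b₁ a₀ with h | h | h
  · exact absurd h hb1
  · intro x y hxy
    exact hswap a₀ b₁ x y hxy h
  · exfalso
    apply hkl
    have hiff : ∀ x y : Ω, (x, y) ∈ MulAction.orbit G (a₀, b₁) ↔
        (y, x) ∈ MulAction.orbit G (a₀, b₂) := by
      intro x y
      constructor
      · intro hxy
        exact hswap a₀ b₂ x y hxy h
      · intro hyx
        have e1 : MulAction.orbit G (b₁, a₀) = MulAction.orbit G (a₀, b₂) :=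
          MulAction.orbit_eq_iff.mpr h
        rw [← e1] at hyx
        obtain ⟨g, hg⟩ := hyx
        have h1 : g • b₁ = y := congrArg Prod.fst hg
        have h2 : g • a₀ = x := congrArg Prod.snd hg
        rw [← h1, ← h2]
        exact (orbital_smul_iff a₀ b₁ g a₀ b₁).mpr (MulAction.mem_orbit_self _)
    have e1 : ∑ x : Ω, ∑ y : Ω, (if (x, y) ∈ MulAction.orbit G (a₀, b₁) then 1 else 0 : ℕ) =
        Fintype.card Ω * Nat.card (MulAction.orbit (MulAction.stabilizer G a₀) b₁) := by
      simp_rw [Finset.sum_boole, orbital_count]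
      simp
    have e2 : ∑ x : Ω, ∑ y : Ω, (if (x, y) ∈ MulAction.orbit G (a₀, b₁) then 1 else 0 : ℕ) =
        Fintype.card Ω * Nat.card (MulAction.orbit (MulAction.stabilizer G a₀) b₂) := by
      rw [Finset.sum_comm]
      simp_rw [hiff, Finset.sum_boole, orbital_count]
      simp
    have hpos : 0 < Fintype.card Ω := Fintype.card_pos_iff.mpr ⟨a₀⟩
    exact Nat.eq_of_mul_eq_mul_left hpos (e1.symm.trans e2)

/-- the square of the adjacency operator of a self-paired orbital of a rank three action -/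
theorem adj_sq [MulAction.IsPretransitive G Ω] (a₀ b₁ b₂ : Ω) (hb1 : b₁ ≠ a₀) (hb2 : b₂ ≠ a₀)
    (h12 : b₂ ∉ MulAction.orbit (MulAction.stabilizer G a₀) b₁)
    (hall : ∀ z : Ω, z = a₀ ∨ z ∈ MulAction.orbit (MulAction.stabilizer G a₀) b₁ ∨
        z ∈ MulAction.orbit (MulAction.stabilizer G a₀) b₂)
    (hsp : ∀ x y : Ω, (x, y) ∈ MulAction.orbit G (a₀, b₁) →
      (y, x) ∈ MulAction.orbit G (a₀, b₁)) :
    ∃ lam mu : ℕ, ∀ (v : Ω → ℂ) (x : Ω), adj G a₀ b₁ (adj G a₀ b₁ v) x =
      (Nat.card (MulAction.orbit (MulAction.stabilizer G a₀) b₁) : ℂ) * v x +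
        (lam : ℂ) * adj G a₀ b₁ v x + (mu : ℂ) * adj G a₀ b₂ v x := by
  classical
  obtain ⟨cnt, hcntdef⟩ : ∃ cnt : Ω → Ω → ℕ, cnt = fun x y => (Finset.univ.filter (fun z =>
      (x, z) ∈ MulAction.orbit G (a₀, b₁) ∧ (z, y) ∈ MulAction.orbit G (a₀, b₁))).card :=
    ⟨_, rfl⟩
  have hinv : ∀ (g : G) (x y : Ω), cnt (g • x) (g • y) = cnt x y := by
    intro g x y
    rw [hcntdef]
    symm
    apply Finset.card_bij (fun z _ => g • z)
    · intro z hz
      rw [Finset.mem_filter] at hz ⊢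
      exact ⟨Finset.mem_univ _, (orbital_smul_iff a₀ b₁ g x z).mpr hz.2.1,
        (orbital_smul_iff a₀ b₁ g z y).mpr hz.2.2⟩
    · intro z _ z' _ h
      exact smul_left_cancel g h
    · intro z' hz'
      rw [Finset.mem_filter] at hz'
      refine ⟨g⁻¹ • z', ?_, smul_inv_smul g z'⟩
      rw [Finset.mem_filter]
      refine ⟨Finset.mem_univ _, ?_, ?_⟩
      · have h1 := (orbital_smul_iff a₀ b₁ g⁻¹ (g • x) z').mpr hz'.2.1
        rwa [inv_smul_smul] at h1
      · have h1 := (orbital_smul_iff a₀ b₁ g⁻¹ z' (g • y)).mpr hz'.2.2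
        rwa [inv_smul_smul] at h1
  refine ⟨cnt a₀ b₁, cnt a₀ b₂, ?_⟩
  have hcnt : ∀ x y : Ω, (cnt x y : ℂ) =
      (Nat.card (MulAction.orbit (MulAction.stabilizer G a₀) b₁) : ℂ) *
        (if x = y then (1 : ℂ) else 0) +
      (cnt a₀ b₁ : ℂ) * (if (x, y) ∈ MulAction.orbit G (a₀, b₁) then 1 else 0) +
      (cnt a₀ b₂ : ℂ) * (if (x, y) ∈ MulAction.orbit G (a₀, b₂) then 1 else 0) := by
    intro x y
    rcases pair_cases a₀ b₁ b₂ hall x y with h | h | h
    · subst h
      have h1 : cnt x x = Nat.card (MulAction.orbit (MulAction.stabilizer G a₀) b₁) := by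
        rw [hcntdef, ← orbital_count (G := G) a₀ b₁ x]
        show (Finset.univ.filter (fun z => (x, z) ∈ MulAction.orbit G (a₀, b₁) ∧
          (z, x) ∈ MulAction.orbit G (a₀, b₁))).card =
          (Finset.univ.filter (fun y => (x, y) ∈ MulAction.orbit G (a₀, b₁))).card
        congr 1
        apply Finset.filter_congr
        intro z _
        constructor
        · intro hz
          exact hz.1
        · intro hz
          exact ⟨hz, hsp x z hz⟩
      rw [h1]
      simp [orbital_diag (G := G) hb1 x, orbital_diag (G := G) hb2 x]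
    · have hxy : x ≠ y := fun e => orbital_diag (G := G) hb1 x (by rw [e] at h ⊢; exact h)
      have h2 : (x, y) ∉ MulAction.orbit G (a₀, b₂) :=
        fun h' => pair_disj a₀ b₁ b₂ h12 x y ⟨h, h'⟩
      obtain ⟨g, hg⟩ := h
      have h3 : g • a₀ = x := congrArg Prod.fst hg
      have h4 : g • b₁ = y := congrArg Prod.snd hg
      have h5 : cnt x y = cnt a₀ b₁ := by rw [← h3, ← h4, hinv]
      have h6 : (x, y) ∈ MulAction.orbit G (a₀, b₁) := ⟨g, hg⟩
      rw [h5]
      simp [hxy, h6, h2]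
    · have hxy : x ≠ y := fun e => orbital_diag (G := G) hb2 x (by rw [e] at h ⊢; exact h)
      have h2 : (x, y) ∉ MulAction.orbit G (a₀, b₁) :=
        fun h' => pair_disj a₀ b₁ b₂ h12 x y ⟨h', h⟩
      obtain ⟨g, hg⟩ := h
      have h3 : g • a₀ = x := congrArg Prod.fst hg
      have h4 : g • b₂ = y := congrArg Prod.snd hg
      have h5 : cnt x y = cnt a₀ b₂ := by rw [← h3, ← h4, hinv]
      have h6 : (x, y) ∈ MulAction.orbit G (a₀, b₂) := ⟨g, hg⟩
      rw [h5]
      simp [hxy, h6, h2]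
  intro v x
  have hL : adj G a₀ b₁ (adj G a₀ b₁ v) x = ∑ y, (cnt x y : ℂ) * v y := by
    rw [adj_apply]
    have h1 : ∀ z : Ω, (if (x, z) ∈ MulAction.orbit G (a₀, b₁) then adj G a₀ b₁ v z else 0) =
        ∑ y, (if (x, z) ∈ MulAction.orbit G (a₀, b₁) ∧ (z, y) ∈ MulAction.orbit G (a₀, b₁)
          then v y else 0) := by
      intro z
      rw [adj_apply]
      by_cases h : (x, z) ∈ MulAction.orbit G (a₀, b₁)
      · simp [h]
      · simp [h]
    simp_rw [h1]
    rw [Finset.sum_comm]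
    apply Finset.sum_congr rfl
    intro y _
    rw [← Finset.sum_filter, Finset.sum_const, nsmul_eq_mul, hcntdef]
  rw [hL, adj_apply, adj_apply]
  have h1 : v x = ∑ y, (if x = y then v y else 0) := by
    rw [Finset.sum_ite_eq]
    simp
  rw [h1, Finset.mul_sum, Finset.mul_sum, Finset.mul_sum, ← Finset.sum_add_distrib,
    ← Finset.sum_add_distrib]
  apply Finset.sum_congr rfl
  intro y _
  rw [hcnt x y]
  simp only [add_mul, mul_ite, ite_mul, zero_mul, mul_one, mul_zero]

/-- a self-paired orbital: the adjacency operator preserves the functions of sum zero -/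
theorem adj_sumZero [MulAction.IsPretransitive G Ω] (a b : Ω)
    (hsp : ∀ x y : Ω, (x, y) ∈ MulAction.orbit G (a, b) → (y, x) ∈ MulAction.orbit G (a, b))
    (v : Ω → ℂ) :
    ∑ x, adj G a b v x =
      (Nat.card (MulAction.orbit (MulAction.stabilizer G a) b) : ℂ) * ∑ y, v y := by
  classical
  simp_rw [adj_apply]
  rw [Finset.sum_comm, Finset.mul_sum]
  apply Finset.sum_congr rfl
  intro y _
  have h1 : ∀ x : Ω, (if (x, y) ∈ MulAction.orbit G (a, b) then v y else 0) =
      (if (y, x) ∈ MulAction.orbit G (a, b) then (1 : ℂ) else 0) * v y := by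
    intro x
    by_cases h : (x, y) ∈ MulAction.orbit G (a, b)
    · rw [if_pos h, if_pos (hsp x y h), one_mul]
    · rw [if_neg h, if_neg (fun h' => h (hsp y x h')), zero_mul]
  simp_rw [h1]
  rw [← Finset.sum_mul, Finset.sum_boole, orbital_count]

end rank3

end Cfsg.Agent.Lib.Helper19.PermChar
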