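import Mathlib

set_option autoImplicit false
set_option linter.unusedSectionVars false

/-! Functions on `ZMod p` with values in a field of characteristic `p`, as polynomial functions;
the subspaces invariant under translation are the spaces of polynomial functions of bounded
degree. -/

namespace Cfsg.Agent.Lib.Helper19

open Polynomial

section polyfun

variable (p : ℕ) [Fact p.Prime] (K : Type*) [Field K] [CharP K p]

/-- evaluation of polynomials on the prime field -/
noncomputable def evZ : K[X] →ₗ[K] (ZMod p → K) where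
  toFun P := fun j => P.eval (ZMod.cast j : K)
  map_add' P Q := by
    funext j
    simp
  map_smul' c P := by
    funext j
    simp

theorem evZ_apply (P : K[X]) (j : ZMod p) : evZ p K P j = P.eval (ZMod.cast j : K) := rfl

theorem zcast_inj : Function.Injective (ZMod.cast : ZMod p → K) :=
  (ZMod.castHom (dvd_refl p) K).injective

theorem zcast_sub_one (j : ZMod p) : (ZMod.cast (j - 1) : K) = ZMod.cast j - 1 := by
  have h := map_sub (ZMod.castHom (dvd_refl p) K) j 1
  rw [map_one] at h
  exact h

/-- polynomial functions of degree `< r` -/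
noncomputable def polyFun (r : ℕ) : Submodule K (ZMod p → K) := (degreeLT K r).map (evZ p K)

theorem mem_polyFun (r : ℕ) (f : ZMod p → K) :
    f ∈ polyFun p K r ↔ ∃ P : K[X], P.degree < r ∧ ∀ j, f j = P.eval (ZMod.cast j : K) := by
  constructor
  · rintro ⟨P, hP, rfl⟩
    exact ⟨P, mem_degreeLT.mp hP, fun j => rfl⟩
  · rintro ⟨P, hP, hf⟩
    exact ⟨P, mem_degreeLT.mpr hP, funext fun j => (hf j).symm⟩

theorem evZ_inj (P : K[X]) (hP : P.degree < p) (h : evZ p K P = 0) : P = 0 := by
  by_contra hP0
  apply hP0
  apply Polynomial.eq_zero_of_natDegree_lt_card_of_eval_eq_zero P (zcast_inj p K)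
    (fun j => congrFun h j)
  rw [ZMod.card]
  exact (natDegree_lt_iff_degree_lt hP0).mpr hP

theorem finrank_polyFun (r : ℕ) (hr : r ≤ p) : Module.finrank K (polyFun p K r) = r := by
  have hinj : Function.Injective ((evZ p K).domRestrict (degreeLT K r)) := by
    rw [← LinearMap.ker_eq_bot, LinearMap.ker_eq_bot']
    intro P hP
    apply Subtype.ext
    exact evZ_inj p K P.1 (lt_of_lt_of_le (mem_degreeLT.mp P.2) (by exact_mod_cast hr)) hP
  have h1 : polyFun p K r = LinearMap.range ((evZ p K).domRestrict (degreeLT K r)) := by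
    rw [LinearMap.range_domRestrict]
    rfl
  rw [h1, LinearMap.finrank_range_of_inj hinj, LinearEquiv.finrank_eq (degreeLTEquiv K r),
    Module.finrank_fin_fun]

/-- the difference operator -/
noncomputable def diffOp : Module.End K (ZMod p → K) where
  toFun f := fun j => f (j - 1) - f j
  map_add' f g := by
    funext j
    simp only [Pi.add_apply]
    ring
  map_smul' c f := by
    funext j
    simp [mul_sub]

theorem diffOp_apply (f : ZMod p → K) (j : ZMod p) : diffOp p K f j = f (j - 1) - f j := rfl

theorem diffOp_polyFun (r : ℕ) (f : ZMod p → K) (hf : f ∈ polyFun p K (r + 1)) :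
    diffOp p K f ∈ polyFun p K r := by
  obtain ⟨P, hP, rfl⟩ := hf
  have hP' : P.degree < (r + 1 : ℕ) := mem_degreeLT.mp hP
  refine ⟨P.comp (X - C 1) - P, ?_, ?_⟩
  · rw [SetLike.mem_coe, mem_degreeLT]
    by_cases hP0 : P = 0
    · subst hP0
      simp only [zero_comp, sub_zero, degree_zero]
      exact WithBot.bot_lt_coe r
    by_cases hQ : P.comp (X - C 1) - P = 0
    · rw [hQ, degree_zero]
      exact WithBot.bot_lt_coe r
    have hnd : (P.comp (X - C 1)).natDegree = P.natDegree := by
      rw [natDegree_comp, natDegree_X_sub_C, mul_one]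
    have hlc : (P.comp (X - C 1)).leadingCoeff = P.leadingCoeff := by
      rw [leadingCoeff_comp (by rw [natDegree_X_sub_C]; exact one_ne_zero), leadingCoeff_X_sub_C,
        one_pow, mul_one]
    have hc0 : P.comp (X - C 1) ≠ 0 := by
      intro h
      rw [h, leadingCoeff_zero] at hlc
      exact hP0 (leadingCoeff_eq_zero.mp hlc.symm)
    have hd : (P.comp (X - C 1)).degree = P.degree := by
      rw [degree_eq_natDegree hc0, degree_eq_natDegree hP0, hnd]
    have h1 := degree_sub_lt_left hd hc0 hlc
    rw [hd] at h1
    have h2 := natDegree_lt_natDegree hQ h1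
    have h3 := (natDegree_lt_iff_degree_lt hP0).mpr hP'
    exact (natDegree_lt_iff_degree_lt hQ).mp (by omega)
  · funext j
    rw [diffOp_apply, evZ_apply, evZ_apply, evZ_apply, zcast_sub_one]
    simp

theorem polyFun_le_ker (r : ℕ) : polyFun p K r ≤ LinearMap.ker ((diffOp p K) ^ r) := by
  induction r with
  | zero =>
    intro f hf
    obtain ⟨P, hP, rfl⟩ := hf
    have hP0 : P = 0 := by
      rw [SetLike.mem_coe, mem_degreeLT] at hP
      by_contra h
      have h1 := (natDegree_lt_iff_degree_lt h).mpr hP
      omega
    subst hP0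
    simp
  | succ r ih =>
    intro f hf
    have h1 := ih (diffOp_polyFun p K r f hf)
    rw [LinearMap.mem_ker] at h1 ⊢
    rw [pow_succ, Module.End.mul_apply]
    exact h1

theorem ker_diffOp_le : LinearMap.ker (diffOp p K) ≤ Submodule.span K {fun _ => (1 : K)} := by
  intro f hf
  rw [LinearMap.mem_ker] at hf
  have h1 : ∀ j : ZMod p, f (j - 1) = f j := fun j => sub_eq_zero.mp (congrFun hf j)
  have h2 : ∀ n : ℕ, f (n : ZMod p) = f 0 := by
    intro n
    induction n with
    | zero => simp
    | succ n ih =>
      have h3 := h1 ((n + 1 : ℕ) : ZMod p)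
      rw [← h3, ← ih]
      congr 1
      push_cast
      ring
  rw [Submodule.mem_span_singleton]
  refine ⟨f 0, funext fun j => ?_⟩
  simp only [Pi.smul_apply, smul_eq_mul, mul_one]
  rw [← h2 j.val, ZMod.natCast_zmod_val]

theorem finrank_ker_pow_le (r : ℕ) :
    Module.finrank K (LinearMap.ker ((diffOp p K) ^ r)) ≤ r := by
  induction r with
  | zero => simp [Module.End.one_eq_id]
  | succ r ih =>
    have h1 := LinearMap.finrank_range_add_finrank_ker
      ((diffOp p K).domRestrict (LinearMap.ker ((diffOp p K) ^ (r + 1))))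
    have h2 : LinearMap.range ((diffOp p K).domRestrict (LinearMap.ker ((diffOp p K) ^ (r + 1))))
        ≤ LinearMap.ker ((diffOp p K) ^ r) := by
      rintro _ ⟨x, rfl⟩
      rw [LinearMap.mem_ker]
      have h5 : ((diffOp p K) ^ (r + 1)) (x : ZMod p → K) = 0 := LinearMap.mem_ker.mp x.2
      have e : (diffOp p K) ^ (r + 1) = (diffOp p K) ^ r * diffOp p K := pow_succ _ _
      exact (LinearMap.congr_fun e (x : ZMod p → K)).symm.trans h5
    have h3 := (Submodule.finrank_mono h2).trans ih
    have h4 : Module.finrank K (LinearMap.ker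
        ((diffOp p K).domRestrict (LinearMap.ker ((diffOp p K) ^ (r + 1))))) ≤ 1 := by
      rw [← Submodule.finrank_map_subtype_eq]
      have h5 : (LinearMap.ker ((diffOp p K).domRestrict
          (LinearMap.ker ((diffOp p K) ^ (r + 1))))).map
          (LinearMap.ker ((diffOp p K) ^ (r + 1))).subtype ≤
          Submodule.span K {fun _ => (1 : K)} := by
        rintro _ ⟨x, hx, rfl⟩
        exact ker_diffOp_le p K hx
      have h1ne : (fun _ : ZMod p => (1 : K)) ≠ 0 := fun h => one_ne_zero (congrFun h 0)
      exact (Submodule.finrank_mono h5).trans (finrank_span_singleton h1ne).le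
    omega

/-- a translation-invariant space of functions on `ZMod p` is the space of polynomial functions of
degree less than its dimension -/
theorem eq_polyFun_of_invariant (W : Submodule K (ZMod p → K))
    (hW : ∀ f ∈ W, (fun j => f (j - 1)) ∈ W) :
    Module.finrank K W ≤ p ∧ W = polyFun p K (Module.finrank K W) := by
  have hdim : Module.finrank K (ZMod p → K) = p := by
    rw [Module.finrank_fintype_fun_eq_card, ZMod.card]
  have hr : Module.finrank K W ≤ p := le_of_le_of_eq (Submodule.finrank_le W) hdim
  refine ⟨hr, ?_⟩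
  have hNW : ∀ f ∈ W, diffOp p K f ∈ W := fun f hf => W.sub_mem (hW f hf) hf
  have htop : polyFun p K p = ⊤ :=
    Submodule.eq_top_of_finrank_eq (by rw [finrank_polyFun p K p le_rfl, hdim])
  have hNp : ∀ f, ((diffOp p K) ^ p) f = 0 := fun f => by
    have h1 : f ∈ polyFun p K p := by
      rw [htop]
      exact Submodule.mem_top
    exact polyFun_le_ker p K p h1
  have hg : ∀ (m : ℕ) (w : W), ((((diffOp p K).restrict hNW) ^ m) w : ZMod p → K) =
      ((diffOp p K) ^ m) w := by
    intro m
    induction m with
    | zero =>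
      intro w
      simp
    | succ m ih =>
      intro w
      rw [pow_succ, Module.End.mul_apply, ih, pow_succ, Module.End.mul_apply]
      rfl
  have hker : LinearMap.ker (((diffOp p K).restrict hNW) ^ p) = ⊤ := by
    rw [eq_top_iff]
    intro w _
    rw [LinearMap.mem_ker]
    apply Subtype.ext
    rw [hg]
    exact hNp w
  have h2 := Module.End.ker_pow_eq_ker_pow_finrank_of_le (f := (diffOp p K).restrict hNW) hr
  rw [hker] at h2
  have hWker : W ≤ LinearMap.ker ((diffOp p K) ^ (Module.finrank K W)) := by
    intro w hw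
    have h3 : (⟨w, hw⟩ : W) ∈ LinearMap.ker (((diffOp p K).restrict hNW) ^ (Module.finrank K W)) := by
      rw [← h2]
      exact Submodule.mem_top
    rw [LinearMap.mem_ker] at h3 ⊢
    have h4 := hg (Module.finrank K W) ⟨w, hw⟩
    rw [h3] at h4
    exact h4.symm
  have hVker : polyFun p K (Module.finrank K W) =
      LinearMap.ker ((diffOp p K) ^ (Module.finrank K W)) := by
    apply Submodule.eq_of_le_of_finrank_le (polyFun_le_ker p K _)
    rw [finrank_polyFun p K _ hr]
    exact finrank_ker_pow_le p K _
  rw [hVker]
  apply Submodule.eq_of_le_of_finrank_eq hWker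
  rw [← hVker, finrank_polyFun p K _ hr]

end polyfun

end Cfsg.Agent.Lib.Helper19
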